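/-
Lifting the involutions of the diagram `Y₃₃₂` to a central extension, as for `Y₃₄₂`.
Nodes: `a = 0, b = 1, c = 2, d = 3, e = 4, f = 5, g = 6, h = 7, i = 8`.
-/
import Cfsg.Agent.Lib.Fischer.M23.Mult.Lift

set_option autoImplicit false

namespace Cfsg.Agent.Lib.Fischer.M22.Mult.Lift

open Cfsg.Agent.Lib.Fischer.M23.Mult.Lift (cv cv_mul cv_one cv_inv cv_inv_mem cv_conj cv_symm cv_prod step)

universe u v

variable {Γ : Type u} {G : Type v} [Group Γ] [Group G]

/-- Adjacency of the nodes of the diagram `Y₃₃₂`. -/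
def adj9 (x y : Fin 9) : Bool :=
  ([(0, 1), (1, 2), (2, 3), (3, 4), (4, 5), (5, 6), (3, 7), (7, 8)] : List (ℕ × ℕ)).any fun p =>
    (p.1 == x.1 && p.2 == y.1) || (p.1 == y.1 && p.2 == x.1)

/-- The Coxeter relations of the diagram. -/
structure NodesN (g : Fin 9 → G) : Prop where
  sq : ∀ x, g x * g x = 1
  br : ∀ x y, adj9 x y = true → g x * g y * g x = g y * g x * g y
  cm : ∀ x y, x ≠ y → adj9 x y = false → g x * g y = g y * g x

variable (σ : Γ →* G)

/-- The lifts. -/
structure HatsN (g : Fin 9 → G) (hat : Fin 9 → Γ) (θ : Γ) : Prop where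
  lift : ∀ x, σ (hat x) = g x
  br : ∀ x y, adj9 x y = true → hat x * hat y * hat x = hat y * hat x * hat y
  cm : ∀ x y, x ≠ y → adj9 x y = false → hat x * hat y = hat y * hat x
  sq : ∀ x, hat x * hat x = θ
  ker : σ θ = 1

/-- The odd word `(c d e f g h i)^9`, whose letters all commute with `a`. -/
def zL : List (Fin 9) := (List.replicate 9 ([2, 3, 4, 5, 6, 7, 8] : List (Fin 9))).flatten

variable {σ}

/-- The pairs of commuting nodes, in an order in which each follows from earlier ones. -/
theorem all_commute {val : Fin 9 → Fin 9 → Prop} (h0 : val 2 0)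
    (hsw : ∀ x y, val x y → val y x)
    (hmv : ∀ x z y, adj9 x z = true → x ≠ y → z ≠ y → adj9 x y = false → adj9 z y = false → val x y → val z y) :
    ∀ x y, x ≠ y → adj9 x y = false → val x y := by
  have h0_2 := hsw _ _ h0
  have h3_0 := hmv 2 3 0 (by decide) (by decide) (by decide) (by decide) (by decide) h0
  have h0_3 := hsw _ _ h3_0
  have h4_0 := hmv 3 4 0 (by decide) (by decide) (by decide) (by decide) (by decide) h3_0
  have h7_0 := hmv 3 7 0 (by decide) (by decide) (by decide) (by decide) (by decide) h3_0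
  have h1_3 := hmv 0 1 3 (by decide) (by decide) (by decide) (by decide) (by decide) h0_3
  have h0_4 := hsw _ _ h4_0
  have h5_0 := hmv 4 5 0 (by decide) (by decide) (by decide) (by decide) (by decide) h4_0
  have h0_7 := hsw _ _ h7_0
  have h8_0 := hmv 7 8 0 (by decide) (by decide) (by decide) (by decide) (by decide) h7_0
  have h3_1 := hsw _ _ h1_3
  have h1_4 := hmv 0 1 4 (by decide) (by decide) (by decide) (by decide) (by decide) h0_4
  have h0_5 := hsw _ _ h5_0
  have h6_0 := hmv 5 6 0 (by decide) (by decide) (by decide) (by decide) (by decide) h5_0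
  have h1_7 := hmv 0 1 7 (by decide) (by decide) (by decide) (by decide) (by decide) h0_7
  have h0_8 := hsw _ _ h8_0
  have h4_1 := hmv 3 4 1 (by decide) (by decide) (by decide) (by decide) (by decide) h3_1
  have h7_1 := hmv 3 7 1 (by decide) (by decide) (by decide) (by decide) (by decide) h3_1
  have h2_4 := hmv 1 2 4 (by decide) (by decide) (by decide) (by decide) (by decide) h1_4
  have h1_5 := hmv 0 1 5 (by decide) (by decide) (by decide) (by decide) (by decide) h0_5
  have h0_6 := hsw _ _ h6_0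
  have h2_7 := hmv 1 2 7 (by decide) (by decide) (by decide) (by decide) (by decide) h1_7
  have h1_8 := hmv 0 1 8 (by decide) (by decide) (by decide) (by decide) (by decide) h0_8
  have h5_1 := hmv 4 5 1 (by decide) (by decide) (by decide) (by decide) (by decide) h4_1
  have h8_1 := hmv 7 8 1 (by decide) (by decide) (by decide) (by decide) (by decide) h7_1
  have h4_2 := hsw _ _ h2_4
  have h2_5 := hmv 1 2 5 (by decide) (by decide) (by decide) (by decide) (by decide) h1_5
  have h1_6 := hmv 0 1 6 (by decide) (by decide) (by decide) (by decide) (by decide) h0_6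
  have h7_2 := hsw _ _ h2_7
  have h2_8 := hmv 1 2 8 (by decide) (by decide) (by decide) (by decide) (by decide) h1_8
  have h6_1 := hmv 5 6 1 (by decide) (by decide) (by decide) (by decide) (by decide) h5_1
  have h5_2 := hmv 4 5 2 (by decide) (by decide) (by decide) (by decide) (by decide) h4_2
  have h3_5 := hmv 2 3 5 (by decide) (by decide) (by decide) (by decide) (by decide) h2_5
  have h2_6 := hmv 1 2 6 (by decide) (by decide) (by decide) (by decide) (by decide) h1_6
  have h8_2 := hmv 7 8 2 (by decide) (by decide) (by decide) (by decide) (by decide) h7_2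
  have h3_8 := hmv 2 3 8 (by decide) (by decide) (by decide) (by decide) (by decide) h2_8
  have h6_2 := hmv 5 6 2 (by decide) (by decide) (by decide) (by decide) (by decide) h5_2
  have h5_3 := hsw _ _ h3_5
  have h7_5 := hmv 3 7 5 (by decide) (by decide) (by decide) (by decide) (by decide) h3_5
  have h3_6 := hmv 2 3 6 (by decide) (by decide) (by decide) (by decide) (by decide) h2_6
  have h8_3 := hsw _ _ h3_8
  have h4_8 := hmv 3 4 8 (by decide) (by decide) (by decide) (by decide) (by decide) h3_8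
  have h6_3 := hmv 5 6 3 (by decide) (by decide) (by decide) (by decide) (by decide) h5_3
  have h5_7 := hsw _ _ h7_5
  have h8_5 := hmv 7 8 5 (by decide) (by decide) (by decide) (by decide) (by decide) h7_5
  have h4_6 := hmv 3 4 6 (by decide) (by decide) (by decide) (by decide) (by decide) h3_6
  have h7_6 := hmv 3 7 6 (by decide) (by decide) (by decide) (by decide) (by decide) h3_6
  have h8_4 := hsw _ _ h4_8
  have h5_8 := hmv 4 5 8 (by decide) (by decide) (by decide) (by decide) (by decide) h4_8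
  have h4_7 := hmv 5 4 7 (by decide) (by decide) (by decide) (by decide) (by decide) h5_7
  have h6_7 := hmv 5 6 7 (by decide) (by decide) (by decide) (by decide) (by decide) h5_7
  have h6_4 := hsw _ _ h4_6
  have h8_6 := hmv 7 8 6 (by decide) (by decide) (by decide) (by decide) (by decide) h7_6
  have h7_4 := hmv 8 7 4 (by decide) (by decide) (by decide) (by decide) (by decide) h8_4
  have h6_8 := hmv 5 6 8 (by decide) (by decide) (by decide) (by decide) (by decide) h5_8
  have hL : ∀ p ∈ ([(0,2), (0,3), (0,4), (0,5), (0,6), (0,7), (0,8), (1,3), (1,4), (1,5), (1,6), (1,7), (1,8), (2,0), (2,4), (2,5), (2,6), (2,7), (2,8), (3,0), (3,1), (3,5), (3,6), (3,8), (4,0), (4,1), (4,2), (4,6), (4,7), (4,8), (5,0), (5,1), (5,2), (5,3), (5,7), (5,8), (6,0), (6,1), (6,2), (6,3), (6,4), (6,7), (6,8), (7,0), (7,1), (7,2), (7,4), (7,5), (7,6), (8,0), (8,1), (8,2), (8,3), (8,4), (8,5), (8,6)] : List (Fin 9 × Fin 9)), val p.1 p.2 := by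
    simp only [List.forall_mem_cons]
    exact ⟨h0_2 , h0_3 , h0_4 , h0_5 , h0_6 , h0_7 , h0_8 , h1_3 , h1_4 , h1_5 , h1_6 , h1_7 , h1_8 , h0 , h2_4 , h2_5 , h2_6 , h2_7 , h2_8 , h3_0 , h3_1 , h3_5 , h3_6 , h3_8 , h4_0 , h4_1 , h4_2 , h4_6 , h4_7 , h4_8 , h5_0 , h5_1 , h5_2 , h5_3 , h5_7 , h5_8 , h6_0 , h6_1 , h6_2 , h6_3 , h6_4 , h6_7 , h6_8 , h7_0 , h7_1 , h7_2 , h7_4 , h7_5 , h7_6 , h8_0 , h8_1 , h8_2 , h8_3 , h8_4 , h8_5 , h8_6, fun _ h => by simp at h⟩
  have hmem : ∀ x y : Fin 9, x ≠ y → adj9 x y = false → (x, y) ∈ ([(0,2), (0,3), (0,4), (0,5), (0,6), (0,7), (0,8), (1,3), (1,4), (1,5), (1,6), (1,7), (1,8), (2,0), (2,4), (2,5), (2,6), (2,7), (2,8), (3,0), (3,1), (3,5), (3,6), (3,8), (4,0), (4,1), (4,2), (4,6), (4,7), (4,8), (5,0), (5,1), (5,2), (5,3), (5,7), (5,8), (6,0), (6,1), (6,2), (6,3), (6,4), (6,7), (6,8), (7,0), (7,1), (7,2), (7,4), (7,5), (7,6), (8,0), (8,1), (8,2), (8,3), (8,4), (8,5), (8,6)] : List (Fin 9 × Fin 9)) := by decide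
  intro x y hne hadj
  exact hL (x, y) (hmem x y hne hadj)

/-- The elements `hat x` commute, from the oddness of `(c d e f g h i)^9`. -/
theorem hats_of_tree {hat : Fin 9 → Γ} {θ : Γ} {g : Fin 9 → G} (hK : σ.ker ≤ Subgroup.center Γ) (hg : NodesN g)
    (hlift : ∀ x, σ (hat x) = g x)
    (hbr : ∀ x y, adj9 x y = true → hat x * hat y * hat x = hat y * hat x * hat y)
    (hsq : ∀ x, hat x * hat x = θ) (hz : (zL.map g).prod = 1) :
    ∀ x y, x ≠ y → adj9 x y = false → hat x * hat y = hat y * hat x := by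
  have hcv : ∀ x y, x ≠ y → adj9 x y = false → cv (hat y) (hat x) ∈ Subgroup.center Γ := by
    intro x y hne hadj
    apply hK
    rw [MonoidHom.mem_ker]
    simp only [cv, map_mul, map_inv, hlift]
    rw [hg.cm x y hne hadj]
    group
  have hθ : θ ∈ Subgroup.center Γ := by
    apply hK
    rw [MonoidHom.mem_ker, ← hsq 0, map_mul, hlift, hg.sq]
  -- the moves
  have hmove : ∀ x z y, adj9 x z = true → x ≠ y → z ≠ y → adj9 x y = false → adj9 z y = false →
      cv (hat y) (hat z) = cv (hat y) (hat x) := by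
    intro x z y hxz hxy hzy h1 h2
    have hconj : hat z = (hat x * hat z) * hat x * (hat x * hat z)⁻¹ := by
      have hb := hbr x z hxz
      calc hat z = (hat z * hat x * hat z) * (hat z)⁻¹ * (hat x)⁻¹ := by group
        _ = (hat x * hat z * hat x) * (hat z)⁻¹ * (hat x)⁻¹ := by rw [hb]
        _ = (hat x * hat z) * hat x * (hat x * hat z)⁻¹ := by group
    have hu : cv (hat y) (hat x * hat z) ∈ Subgroup.center Γ := by
      rw [cv_mul (hcv x y hxy h1) (hcv z y hzy h2)]
      exact mul_mem (hcv x y hxy h1) (hcv z y hzy h2)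
    conv_lhs => rw [hconj]
    exact cv_conj hu (hcv x y hxy h1)
  -- the value of the pair `(c, a)`
  have h20 : cv (hat 0) (hat 2) = 1 := by
    set δ := cv (hat 0) (hat 2) with hδ
    have hδc : δ ∈ Subgroup.center Γ := hcv 2 0 (by decide) (by decide)
    have h3 : cv (hat 0) (hat 3) = δ := hmove 2 3 0 (by decide) (by decide) (by decide) (by decide) (by decide)
    have h4 : cv (hat 0) (hat 4) = δ := by
      rw [hmove 3 4 0 (by decide) (by decide) (by decide) (by decide) (by decide), h3]
    have h5 : cv (hat 0) (hat 5) = δ := by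
      rw [hmove 4 5 0 (by decide) (by decide) (by decide) (by decide) (by decide), h4]
    have h6 : cv (hat 0) (hat 6) = δ := by
      rw [hmove 5 6 0 (by decide) (by decide) (by decide) (by decide) (by decide), h5]
    have h7 : cv (hat 0) (hat 7) = δ := by
      rw [hmove 3 7 0 (by decide) (by decide) (by decide) (by decide) (by decide), h3]
    have h8 : cv (hat 0) (hat 8) = δ := by
      rw [hmove 7 8 0 (by decide) (by decide) (by decide) (by decide) (by decide), h7]
    have hw : ∀ x ∈ zL, cv (hat 0) (hat x) = δ := by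
      have hsub : ∀ x ∈ zL, x ∈ ([2, 3, 4, 5, 6, 7, 8] : List (Fin 9)) := by decide
      intro x hx
      have := hsub x hx
      simp only [List.mem_cons, List.not_mem_nil, or_false] at this
      rcases this with rfl | rfl | rfl | rfl | rfl | rfl | rfl
      · rfl
      · exact h3
      · exact h4
      · exact h5
      · exact h6
      · exact h7
      · exact h8
    have hp := cv_prod hδc hat zL hw
    have hlen : zL.length = 63 := by decide
    rw [hlen] at hp
    -- the word lies in the kernel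
    have hzk : (zL.map hat).prod ∈ Subgroup.center Γ := by
      apply hK
      rw [MonoidHom.mem_ker, map_list_prod, List.map_map]
      have : (⇑σ ∘ hat) = g := by
        funext x
        exact hlift x
      rw [this, hz]
    have hc1 : cv (hat 0) (zL.map hat).prod = 1 := by
      have hc := Subgroup.mem_center_iff.1 hzk
      simp only [cv]
      rw [(hc (hat 0)).symm]
      simp
    have hsqδ : δ * δ = 1 := by
      have h9 : cv (hat 0) (hat 2 * hat 2) = δ * δ := cv_mul hδc hδc
      rw [hsq 2] at h9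
      have hc := Subgroup.mem_center_iff.1 hθ
      rw [← h9]
      simp only [cv]
      rw [(hc (hat 0)).symm]
      simp
    have h63 : δ ^ 63 = 1 := by rw [← hp, hc1]
    have h2' : δ ^ 2 = 1 := by rw [pow_two, hsqδ]
    have : δ ^ 63 = δ := by
      have e : (63 : ℕ) = 2 * 31 + 1 := by norm_num
      rw [e, pow_succ, pow_mul, h2', one_pow, one_mul]
    rw [← this, h63]
  have hall := all_commute (val := fun x y => cv (hat y) (hat x) = 1) h20
    (by
      intro x y h
      show cv (hat x) (hat y) = 1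
      rw [cv_symm, h, inv_one])
    (by
      intro x z y hxz hxy hzy h1 h2 h
      show cv (hat y) (hat z) = 1
      rw [hmove x z y hxz hxy hzy h1 h2]
      exact h)
  intro x y hne hadj
  have h := hall x y hne hadj
  simp only [cv] at h
  have h' : hat x * hat y * (hat x)⁻¹ = hat y := by
    rwa [mul_inv_eq_one] at h
  calc hat x * hat y = hat x * hat y * (hat x)⁻¹ * hat x := by group
    _ = hat y * hat x := by rw [h']

/-- The lifts exist. -/
theorem exists_hats {g : Fin 9 → G} (hσ : Function.Surjective σ) (hK : σ.ker ≤ Subgroup.center Γ) (hg : NodesN g)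
    (hz : (zL.map g).prod = 1) : ∃ hat θ, HatsN σ g hat θ := by
  choose s hs using fun x => hσ (g x)
  have st : ∀ {P : Γ} {x y : Fin 9}, σ P = g x → adj9 x y = true →
      ∃ Y, σ Y = g y ∧ Y * P * Y = P * Y * P ∧ Y * Y = P * P := by
    intro P x y hP hxy
    exact step σ hK hP (hs y) (hg.sq x) (hg.sq y) (hg.br x y hxy)
  obtain ⟨h1, l1, b1, q1⟩ := st (P := s 0) (x := 0) (y := 1) (hs 0) (by decide)
  obtain ⟨h2, l2, b2, q2⟩ := st (P := h1) (x := 1) (y := 2) l1 (by decide)
  obtain ⟨h3, l3, b3, q3⟩ := st (P := h2) (x := 2) (y := 3) l2 (by decide)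
  obtain ⟨h4, l4, b4, q4⟩ := st (P := h3) (x := 3) (y := 4) l3 (by decide)
  obtain ⟨h5, l5, b5, q5⟩ := st (P := h4) (x := 4) (y := 5) l4 (by decide)
  obtain ⟨h6, l6, b6, q6⟩ := st (P := h5) (x := 5) (y := 6) l5 (by decide)
  obtain ⟨h7, l7, b7, q7⟩ := st (P := h3) (x := 3) (y := 7) l3 (by decide)
  obtain ⟨h8, l8, b8, q8⟩ := st (P := h7) (x := 7) (y := 8) l7 (by decide)
  let hat : Fin 9 → Γ := ![s 0, h1, h2, h3, h4, h5, h6, h7, h8]
  have hlift : ∀ x, σ (hat x) = g x := by
    intro x
    fin_cases x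
    · exact hs 0
    · exact l1
    · exact l2
    · exact l3
    · exact l4
    · exact l5
    · exact l6
    · exact l7
    · exact l8
  have hsq : ∀ x, hat x * hat x = s 0 * s 0 := by
    intro x
    fin_cases x
    · rfl
    · exact q1
    · exact q2.trans q1
    · exact q3.trans (q2.trans q1)
    · exact q4.trans (q3.trans (q2.trans q1))
    · exact q5.trans (q4.trans (q3.trans (q2.trans q1)))
    · exact q6.trans (q5.trans (q4.trans (q3.trans (q2.trans q1))))
    · exact q7.trans (q3.trans (q2.trans q1))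
    · exact q8.trans (q7.trans (q3.trans (q2.trans q1)))
  have hE : ∀ p ∈ ([(0,1),(1,2),(2,3),(3,4),(4,5),(5,6),(3,7),(7,8)] : List (Fin 9 × Fin 9)),
      hat p.1 * hat p.2 * hat p.1 = hat p.2 * hat p.1 * hat p.2 := by
    simp only [List.forall_mem_cons]
    exact ⟨b1.symm, b2.symm, b3.symm, b4.symm, b5.symm, b6.symm, b7.symm, b8.symm, fun _ h => by simp at h⟩
  have hmem : ∀ x y : Fin 9, adj9 x y = true →
      (x, y) ∈ ([(0,1),(1,2),(2,3),(3,4),(4,5),(5,6),(3,7),(7,8)] : List (Fin 9 × Fin 9)) ∨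
      (y, x) ∈ ([(0,1),(1,2),(2,3),(3,4),(4,5),(5,6),(3,7),(7,8)] : List (Fin 9 × Fin 9)) := by decide
  have hbr : ∀ x y, adj9 x y = true → hat x * hat y * hat x = hat y * hat x * hat y := by
    intro x y hxy
    rcases hmem x y hxy with h | h
    · exact hE (x, y) h
    · exact (hE (y, x) h).symm
  refine ⟨hat, s 0 * s 0, hlift, hbr, hats_of_tree hK hg hlift hbr hsq hz, hsq, ?_⟩
  rw [map_mul, hs, hg.sq]

end Cfsg.Agent.Lib.Fischer.M22.Mult.Lift
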