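/-
The graded group for the diagram `Y₃₃₂`.
-/
import Cfsg.Agent.Lib.Fischer.M23.Mult.Grade
import Cfsg.Agent.Lib.Fischer.M22.Mult.Lift

set_option autoImplicit false

namespace Cfsg.Agent.Lib.Fischer.M22.Mult.Grade

open Lift
open Cfsg.Agent.Lib.Fischer.M23.Mult.Grade (AA prod_center NodesL comm_central)
open scoped commutatorElement

universe u v

/-- The labelled relations from the relations of the diagram. -/
theorem NodesN.toL {Q : Type*} [Group Q] {f : Fin 9 → Q} (hf : NodesN f) {n : ℕ} {l : Fin n → Fin 10} {r : Fin n → Fin 9}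
    (hr : Function.Injective r) (hlr : ∀ i j, Cfsg.Agent.Lib.Fischer.M23.Mult.Words.adj10 (l i) (l j) = adj9 (r i) (r j)) :
    NodesL l (f ∘ r) where
  sq i := hf.sq _
  br i j h := hf.br _ _ (by rw [← hlr]; exact h)
  cm i j hne h := hf.cm _ _ (fun e => hne (hr e)) (by rw [← hlr]; exact h)

/-! ### The graded group -/

variable {Γ : Type u} [Group Γ]

/-- The generator of degree one above `hat x`. -/
def X (hat : Fin 9 → Γ) (x : Fin 9) : AA Γ := (hat x, Multiplicative.ofAdd 1)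

/-- The central element of degree two. -/
def Th (θ : Γ) : AA Γ := (θ, Multiplicative.ofAdd 2)

/-- The value of a word. -/
def evA (hat : Fin 9 → Γ) (l : List (Fin 9)) : AA Γ := (l.map (X hat)).prod

theorem evA_fst (hat : Fin 9 → Γ) (l : List (Fin 9)) : (evA hat l).1 = (l.map hat).prod := by
  induction l with
  | nil => rfl
  | cons x l ih =>
    simp only [evA, List.map_cons, List.prod_cons, Prod.fst_mul] at ih ⊢
    rw [ih]; rfl

theorem evA_snd (hat : Fin 9 → Γ) (l : List (Fin 9)) :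
    (evA hat l).2 = Multiplicative.ofAdd (l.length : ℤ) := by
  induction l with
  | nil => rfl
  | cons x l ih =>
    simp only [evA, List.map_cons, List.prod_cons, Prod.snd_mul, List.length_cons] at ih ⊢
    rw [ih]
    show Multiplicative.ofAdd (1 : ℤ) * Multiplicative.ofAdd (l.length : ℤ) = _
    rw [← ofAdd_add]
    congr 1
    push_cast
    ring

section HatsN

variable {G : Type v} [Group G] {σ : Γ →* G} {g : Fin 9 → G} {hat : Fin 9 → Γ} {θ : Γ}

/-- The family `X` modulo a normal subgroup containing `Th` satisfies the Coxeter relations. -/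
theorem nodes_quot (H : HatsN σ g hat θ) (N : Subgroup (AA Γ)) [N.Normal] (hN : Th θ ∈ N) :
    NodesN (fun x => (QuotientGroup.mk' N) (X hat x)) where
  sq x := by
    rw [← map_mul]
    have : X hat x * X hat x = Th θ := by
      apply Prod.ext
      · exact H.sq x
      · rfl
    rw [this]
    exact (QuotientGroup.eq_one_iff _).2 hN
  br x y hxy := by
    simp only [← map_mul]
    congr 1
    apply Prod.ext
    · exact H.br x y hxy
    · show Multiplicative.ofAdd (1 : ℤ) * Multiplicative.ofAdd 1 * Multiplicative.ofAdd 1 =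
        Multiplicative.ofAdd (1 : ℤ) * Multiplicative.ofAdd 1 * Multiplicative.ofAdd 1
      rfl
  cm x y hne hxy := by
    simp only [← map_mul]
    congr 1
    apply Prod.ext
    · exact H.cm x y hne hxy
    · rfl

theorem quot_word (N : Subgroup (AA Γ)) [N.Normal] (l : List (Fin 9)) :
    (l.map (fun x => (QuotientGroup.mk' N) (X hat x))).prod = (QuotientGroup.mk' N) (evA hat l) := by
  simp only [evA, map_list_prod, List.map_map]
  rfl

theorem sigma_word (H : HatsN σ g hat θ) (l : List (Fin 9)) : σ (evA hat l).1 = (l.map g).prod := by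
  rw [evA_fst, map_list_prod, List.map_map]
  congr 1
  apply List.map_congr_left
  intro x _
  exact H.lift x

/-- The element `θ` is central. -/
theorem theta_center (H : HatsN σ g hat θ) (hK : σ.ker ≤ Subgroup.center Γ) : θ ∈ Subgroup.center Γ :=
  hK (MonoidHom.mem_ker.2 H.ker)

/-- A word that is trivial in `G` is central. -/
theorem word_center (H : HatsN σ g hat θ) (hK : σ.ker ≤ Subgroup.center Γ) {l : List (Fin 9)}
    (hl : (l.map g).prod = 1) : evA hat l ∈ Subgroup.center (AA Γ) :=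
  prod_center (hK (MonoidHom.mem_ker.2 (by rw [sigma_word H, hl])))

/-- The map to `G` from a quotient of the graded group. -/
noncomputable def tauOf (σ : Γ →* G) (N : Subgroup (AA Γ)) [N.Normal] (hN : ∀ x ∈ N, σ x.1 = 1) : AA Γ ⧸ N →* G :=
  QuotientGroup.lift N (σ.comp (MonoidHom.fst _ _)) (fun x hx => hN x hx)

theorem tauOf_mk (N : Subgroup (AA Γ)) [N.Normal] (hN : ∀ x ∈ N, σ x.1 = 1) (x : AA Γ) :
    tauOf σ N hN ((QuotientGroup.mk' N) x) = σ x.1 := rfl

/-- Elements of the normal closure of `Th`. -/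
theorem eq_pow_of_mem (H : HatsN σ g hat θ) (hK : σ.ker ≤ Subgroup.center Γ) {x : AA Γ}
    (hx : x ∈ Subgroup.normalClosure ({Th θ} : Set (AA Γ))) (n : ℤ) (hn : x.2 = Multiplicative.ofAdd (2 * n)) :
    x = Th θ ^ n := by
  have hc : Th θ ∈ Subgroup.center (AA Γ) := prod_center (theta_center H hK)
  have hz : (Subgroup.zpowers (Th θ)).Normal := by
    refine ⟨fun y hy a => ?_⟩
    obtain ⟨m, rfl⟩ := Subgroup.mem_zpowers_iff.1 hy
    have hcm := Subgroup.mem_center_iff.1 (zpow_mem hc m) a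
    show a * Th θ ^ m * a⁻¹ ∈ _
    rw [hcm]
    simp
  have hle : Subgroup.normalClosure ({Th θ} : Set (AA Γ)) ≤ Subgroup.zpowers (Th θ) :=
    Subgroup.normalClosure_le_normal (by simp)
  obtain ⟨m, rfl⟩ := Subgroup.mem_zpowers_iff.1 (hle hx)
  have h2 : ((Th θ) ^ m).2 = Multiplicative.ofAdd (2 * m) := by
    rw [Prod.pow_snd]
    show (Multiplicative.ofAdd (2 : ℤ)) ^ m = _
    rw [← ofAdd_zsmul]
    congr 1
    simp [mul_comm]
  rw [h2] at hn
  have : 2 * m = 2 * n := Multiplicative.ofAdd.injective hn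
  have : m = n := by omega
  rw [this]

end HatsN

/-- A computation in a commutative group. -/
theorem comm_alg {M : Type*} [CommGroup M] (a b c d : M) (A B C D E : ℤ) (e2 : c ^ (2 : ℤ) = a ^ (63 : ℤ))
    (hE : C = 2 * E - B) (hA : A + 63 * E + 45 * D = 0) :
    a ^ A * b ^ B * c ^ C * d ^ D = (b * c⁻¹) ^ B * (d * a ^ (-45 : ℤ)) ^ D := by
  subst hE
  have e3 : c ^ (2 * E - B) = a ^ (63 * E) * c ^ (-B) := by
    rw [sub_eq_add_neg, zpow_add, zpow_mul, e2, ← zpow_mul]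
  have e5 : a ^ A * a ^ (63 * E) = a ^ (-45 * D) := by
    rw [← zpow_add]
    congr 1
    linarith
  rw [e3, mul_zpow, mul_zpow, ← zpow_mul a (-45 : ℤ) D, inv_zpow, ← zpow_neg c B, ← e5]
  simp only [mul_assoc, mul_left_comm, mul_comm]

section Main

/-- Products of powers of four central elements. -/
theorem mono_mul {a b c d : AA Γ} (ha : a ∈ Subgroup.center (AA Γ)) (hb : b ∈ Subgroup.center (AA Γ))
    (hc : c ∈ Subgroup.center (AA Γ)) (hd : d ∈ Subgroup.center (AA Γ)) (A B C D A' B' C' D' : ℤ) :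
    a ^ A * b ^ B * c ^ C * d ^ D * (a ^ A' * b ^ B' * c ^ C' * d ^ D') =
      a ^ (A + A') * b ^ (B + B') * c ^ (C + C') * d ^ (D + D') := by
  have h := congrArg Subtype.val (show ((⟨a, ha⟩ : Subgroup.center (AA Γ)) ^ A * (⟨b, hb⟩ : Subgroup.center (AA Γ)) ^ B *
      (⟨c, hc⟩ : Subgroup.center (AA Γ)) ^ C * (⟨d, hd⟩ : Subgroup.center (AA Γ)) ^ D *
      ((⟨a, ha⟩ : Subgroup.center (AA Γ)) ^ A' *
      (⟨b, hb⟩ : Subgroup.center (AA Γ)) ^ B' * (⟨c, hc⟩ : Subgroup.center (AA Γ)) ^ C' *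
      (⟨d, hd⟩ : Subgroup.center (AA Γ)) ^ D')) =
      (⟨a, ha⟩ : Subgroup.center (AA Γ)) ^ (A + A') * (⟨b, hb⟩ : Subgroup.center (AA Γ)) ^ (B + B') *
      (⟨c, hc⟩ : Subgroup.center (AA Γ)) ^ (C + C') * (⟨d, hd⟩ : Subgroup.center (AA Γ)) ^ (D + D') from by
    simp only [zpow_add]
    ac_rfl)
  simpa using h

/-- The monomials in four central elements. -/
def monoT (a b c d : AA Γ) (ha : a ∈ Subgroup.center (AA Γ)) (hb : b ∈ Subgroup.center (AA Γ))
    (hc : c ∈ Subgroup.center (AA Γ)) (hd : d ∈ Subgroup.center (AA Γ)) : Subgroup (AA Γ) where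
  carrier := {x | ∃ A B C D : ℤ, x = a ^ A * b ^ B * c ^ C * d ^ D}
  mul_mem' := by
    rintro _ _ ⟨A, B, C, D, rfl⟩ ⟨A', B', C', D', rfl⟩
    exact ⟨A + A', B + B', C + C', D + D', mono_mul ha hb hc hd _ _ _ _ _ _ _ _⟩
  one_mem' := ⟨0, 0, 0, 0, by simp⟩
  inv_mem' := by
    rintro _ ⟨A, B, C, D, rfl⟩
    refine ⟨-A, -B, -C, -D, ?_⟩
    rw [eq_comm, ← mul_eq_one_iff_eq_inv', mono_mul ha hb hc hd]
    simp

theorem monoT_center (a b c d : AA Γ) (ha : a ∈ Subgroup.center (AA Γ)) (hb : b ∈ Subgroup.center (AA Γ))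
    (hc : c ∈ Subgroup.center (AA Γ)) (hd : d ∈ Subgroup.center (AA Γ)) : monoT a b c d ha hb hc hd ≤ Subgroup.center (AA Γ) := by
  rintro _ ⟨A, B, C, D, rfl⟩
  exact mul_mem (mul_mem (mul_mem (zpow_mem ha _) (zpow_mem hb _)) (zpow_mem hc _)) (zpow_mem hd _)

instance monoT_normal (a b c d : AA Γ) (ha : a ∈ Subgroup.center (AA Γ)) (hb : b ∈ Subgroup.center (AA Γ))
    (hc : c ∈ Subgroup.center (AA Γ)) (hd : d ∈ Subgroup.center (AA Γ)) : (monoT a b c d ha hb hc hd).Normal := by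
  refine ⟨fun x hx y => ?_⟩
  have := Subgroup.mem_center_iff.1 (monoT_center a b c d ha hb hc hd hx) y
  rw [this]
  simpa using hx

variable {G : Type u} [Group G] {σ : Γ →* G} {g : Fin 9 → G} {hat : Fin 9 → Γ} {θ : Γ}

theorem ker_form (H : HatsN σ g hat θ) (hK : σ.ker ≤ Subgroup.center Γ) (z1 z2 z3 : List (Fin 9))
    (hz1 : (z1.map g).prod = 1) (hz2 : (z2.map g).prod = 1) (hz3 : (z3.map g).prod = 1)
    (hgen : Subgroup.closure (Set.range g) = ⊤)
    (hU : ∀ (Q' : Type u) [Group Q'] (f : Fin 9 → Q'), NodesN f → (z1.map f).prod = 1 → (z2.map f).prod = 1 →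
      (z3.map f).prod = 1 → ∃ φ : G →* Q', ∀ x, φ (g x) = f x)
    {k : Γ} (hk : σ k = 1) (hkc : k ∈ commutator Γ) :
    ∃ A B C D : ℤ, ((k, 1) : AA Γ) = Th θ ^ A * evA hat z1 ^ B * evA hat z2 ^ C * evA hat z3 ^ D := by
  have ha : Th θ ∈ Subgroup.center (AA Γ) := prod_center (theta_center H hK)
  have hb := word_center H hK hz1
  have hc := word_center H hK hz2
  have hd := word_center H hK hz3
  set T := monoT (Th θ) (evA hat z1) (evA hat z2) (evA hat z3) ha hb hc hd with hT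
  have hTa : Th θ ∈ T := ⟨1, 0, 0, 0, by simp⟩
  have hTb : evA hat z1 ∈ T := ⟨0, 1, 0, 0, by simp⟩
  have hTc : evA hat z2 ∈ T := ⟨0, 0, 1, 0, by simp⟩
  have hTd : evA hat z3 ∈ T := ⟨0, 0, 0, 1, by simp⟩
  have hnodes := nodes_quot H T hTa
  have hw1 : (z1.map (fun x => (QuotientGroup.mk' T) (X hat x))).prod = 1 := by
    rw [quot_word]
    exact (QuotientGroup.eq_one_iff _).2 hTb
  have hw2 : (z2.map (fun x => (QuotientGroup.mk' T) (X hat x))).prod = 1 := by
    rw [quot_word]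
    exact (QuotientGroup.eq_one_iff _).2 hTc
  have hw3 : (z3.map (fun x => (QuotientGroup.mk' T) (X hat x))).prod = 1 := by
    rw [quot_word]
    exact (QuotientGroup.eq_one_iff _).2 hTd
  obtain ⟨φ, hφ⟩ := hU _ _ hnodes hw1 hw2 hw3
  have hTσ : ∀ x ∈ T, σ x.1 = 1 := by
    rintro _ ⟨A, B, C, D, rfl⟩
    have e : ∀ y : AA Γ, σ y.1 = (σ.comp (MonoidHom.fst _ _)) y := fun _ => rfl
    rw [e, map_mul, map_mul, map_mul, map_zpow, map_zpow, map_zpow, map_zpow, ← e, ← e, ← e, ← e, sigma_word H,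
      sigma_word H, sigma_word H, hz1, hz2, hz3]
    have : σ (Th θ).1 = 1 := H.ker
    rw [this]
    simp
  set τ := tauOf σ T hTσ with hτ
  have hτφ : ∀ y : G, τ (φ y) = y := by
    intro y
    have hy : y ∈ Subgroup.closure (Set.range g) := by rw [hgen]; trivial
    induction hy using Subgroup.closure_induction with
    | mem y hy =>
      obtain ⟨x, rfl⟩ := hy
      rw [hφ]
      exact H.lift x
    | one => simp
    | mul a b _ _ iha ihb => rw [map_mul, map_mul, iha, ihb]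
    | inv a _ ih => rw [map_inv, map_inv, ih]
  set U := Subgroup.closure (Set.range (X hat)) with hUdef
  have h1 : ∀ y : G, ∃ u ∈ U, σ u.1 = y := by
    intro y
    have hy : y ∈ Subgroup.closure (Set.range g) := by rw [hgen]; trivial
    induction hy using Subgroup.closure_induction with
    | mem y hy =>
      obtain ⟨x, rfl⟩ := hy
      exact ⟨X hat x, Subgroup.subset_closure ⟨x, rfl⟩, H.lift x⟩
    | one => exact ⟨1, one_mem _, map_one _⟩
    | mul a b _ _ iha ihb =>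
      obtain ⟨u, hu, hu'⟩ := iha
      obtain ⟨v, hv, hv'⟩ := ihb
      exact ⟨u * v, mul_mem hu hv, by simp [hu', hv']⟩
    | inv a _ ih =>
      obtain ⟨u, hu, hu'⟩ := ih
      exact ⟨u⁻¹, inv_mem hu, by simp [hu']⟩
  have hcomm : commutator Γ ≤ U.comap (MonoidHom.inl Γ (Multiplicative ℤ)) := by
    rw [commutator_def, Subgroup.commutator_le]
    intro a _ b _
    obtain ⟨u, hu, hu'⟩ := h1 (σ a)
    obtain ⟨v, hv, hv'⟩ := h1 (σ b)
    have hka : u.1⁻¹ * a ∈ Subgroup.center Γ := hK (by rw [MonoidHom.mem_ker]; simp [hu'])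
    have hkb : v.1⁻¹ * b ∈ Subgroup.center Γ := hK (by rw [MonoidHom.mem_ker]; simp [hv'])
    have e : ⁅a, b⁆ = ⁅u.1, v.1⁆ := by
      have := comm_central (a := u.1) (b := v.1) hka hkb
      simpa using this
    rw [Subgroup.mem_comap, e]
    have e2 : MonoidHom.inl Γ (Multiplicative ℤ) ⁅u.1, v.1⁆ = ⁅u, v⁆ := by
      apply Prod.ext
      · rfl
      · show (1 : Multiplicative ℤ) = ⁅u.2, v.2⁆
        exact (commutatorElement_eq_one_iff_mul_comm.2 (mul_comm _ _)).symm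
    rw [e2, commutatorElement_def]
    exact mul_mem (mul_mem (mul_mem hu hv) (inv_mem hu)) (inv_mem hv)
  have h3 : ∀ u ∈ U, ∃ y, (QuotientGroup.mk' T) u = φ y := by
    intro u hu
    induction hu using Subgroup.closure_induction with
    | mem u hu =>
      obtain ⟨x, rfl⟩ := hu
      exact ⟨g x, (hφ x).symm⟩
    | one => exact ⟨1, by simp⟩
    | mul a b _ _ iha ihb =>
      obtain ⟨u, hu⟩ := iha
      obtain ⟨v, hv⟩ := ihb
      exact ⟨u * v, by rw [map_mul, map_mul, hu, hv]⟩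
    | inv a _ ih =>
      obtain ⟨u, hu⟩ := ih
      exact ⟨u⁻¹, by rw [map_inv, map_inv, hu]⟩
  have hkU : ((k, 1) : AA Γ) ∈ U := hcomm hkc
  obtain ⟨y, hy⟩ := h3 _ hkU
  have hy1 : y = 1 := by
    have := hτφ y
    rw [← hy, hτ, tauOf_mk] at this
    rw [← this]
    exact hk
  rw [hy1, map_one] at hy
  exact (QuotientGroup.eq_one_iff _).1 hy

/-- The part of the kernel in the commutator subgroup is generated by `S` and `U`. -/
theorem ker_gen (H : HatsN σ g hat θ) (hK : σ.ker ≤ Subgroup.center Γ) (z1 z2 z3 : List (Fin 9))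
    (hz1 : (z1.map g).prod = 1) (hz2 : (z2.map g).prod = 1) (hz3 : (z3.map g).prod = 1)
    (hgen : Subgroup.closure (Set.range g) = ⊤)
    (hU : ∀ (Q' : Type u) [Group Q'] (f : Fin 9 → Q'), NodesN f → (z1.map f).prod = 1 → (z2.map f).prod = 1 →
      (z3.map f).prod = 1 → ∃ φ : G →* Q', ∀ x, φ (g x) = f x)
    (hR1 : evA hat z1 ^ (2 : ℤ) = Th θ ^ (63 : ℤ)) (hR2 : evA hat z2 ^ (2 : ℤ) = Th θ ^ (63 : ℤ))
    (hR3 : evA hat z3 ^ (3 : ℤ) = Th θ ^ (135 : ℤ))
    (hlen1 : z1.length = 63) (hlen2 : z2.length = 63) (hlen3 : z3.length = 90)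
    {k : Γ} (hk : σ k = 1) (hkc : k ∈ commutator Γ) :
    ∃ B D : ℤ, k = ((evA hat z1 * (evA hat z2)⁻¹).1) ^ B * ((evA hat z3 * Th θ ^ (-45 : ℤ)).1) ^ D := by
  obtain ⟨A, B, C, D, h⟩ := ker_form H hK z1 z2 z3 hz1 hz2 hz3 hgen hU hk hkc
  have ha : Th θ ∈ Subgroup.center (AA Γ) := prod_center (theta_center H hK)
  have hb := word_center H hK hz1
  have hc := word_center H hK hz2
  have hd := word_center H hK hz3
  -- the degrees
  have hdeg : (2 : ℤ) * A + 63 * B + 63 * C + 90 * D = 0 := by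
    have h2 := congrArg Prod.snd h
    simp only [Prod.snd_mul, Prod.pow_snd, evA_snd, hlen1, hlen2, hlen3] at h2
    have e : (Th θ).2 = Multiplicative.ofAdd (2 : ℤ) := rfl
    rw [e] at h2
    simp only [← ofAdd_zsmul, ← ofAdd_add] at h2
    have h6 := congrArg (fun x : Multiplicative ℤ => Multiplicative.toAdd x) h2
    simp only [smul_eq_mul, Nat.cast_ofNat, toAdd_ofAdd, toAdd_one] at h6
    linarith
  obtain ⟨E, hE⟩ : ∃ E, C = 2 * E - B := ⟨(B + C) / 2, by omega⟩
  have hA : A + 63 * E + 45 * D = 0 := by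
    subst hE
    linarith
  refine ⟨B, D, ?_⟩
  -- in the centre of `AA Γ`
  let a' : Subgroup.center (AA Γ) := ⟨Th θ, ha⟩
  let b' : Subgroup.center (AA Γ) := ⟨evA hat z1, hb⟩
  let c' : Subgroup.center (AA Γ) := ⟨evA hat z2, hc⟩
  let d' : Subgroup.center (AA Γ) := ⟨evA hat z3, hd⟩
  have e2 : c' ^ (2 : ℤ) = a' ^ (63 : ℤ) := Subtype.ext (by simpa using hR2)
  letI : CommGroup (Subgroup.center (AA Γ)) :=
    { (inferInstance : Group (Subgroup.center (AA Γ))) with
      mul_comm := fun x y => Subtype.ext (Subgroup.mem_center_iff.1 y.2 x.1) }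
  have key : a' ^ A * b' ^ B * c' ^ C * d' ^ D = (b' * c'⁻¹) ^ B * (d' * a' ^ (-45 : ℤ)) ^ D :=
    comm_alg a' b' c' d' A B C D E e2 hE hA
  have h3 : ((k, 1) : AA Γ) = ((evA hat z1 * (evA hat z2)⁻¹) ^ B * (evA hat z3 * Th θ ^ (-45 : ℤ)) ^ D) := by
    rw [h]
    have := congrArg Subtype.val key
    simpa [a', b', c', d'] using this
  have h4 := congrArg Prod.fst h3
  simpa using h4

/-- The element of order dividing `2`. -/
theorem S_sq {z1 z2 : List (Fin 9)} (hR1 : evA hat z1 ^ (2 : ℤ) = Th θ ^ (63 : ℤ)) (hR2 : evA hat z2 ^ (2 : ℤ) = Th θ ^ (63 : ℤ))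
    (hb : evA hat z1 ∈ Subgroup.center (AA Γ)) :
    ((evA hat z1 * (evA hat z2)⁻¹).1) ^ 2 = 1 := by
  have hc := Subgroup.mem_center_iff.1 hb (evA hat z2)⁻¹
  have h : (evA hat z1 * (evA hat z2)⁻¹) ^ (2 : ℤ) = 1 := by
    rw [zpow_two]
    calc evA hat z1 * (evA hat z2)⁻¹ * (evA hat z1 * (evA hat z2)⁻¹)
        = evA hat z1 * ((evA hat z2)⁻¹ * evA hat z1) * (evA hat z2)⁻¹ := by group
      _ = evA hat z1 * (evA hat z1 * (evA hat z2)⁻¹) * (evA hat z2)⁻¹ := by rw [hc]
      _ = (evA hat z1 * evA hat z1) * ((evA hat z2 * evA hat z2))⁻¹ := by group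
      _ = evA hat z1 ^ (2 : ℤ) * (evA hat z2 ^ (2 : ℤ))⁻¹ := by rw [zpow_two, zpow_two]
      _ = 1 := by rw [hR1, hR2]; simp
  have h2 := congrArg Prod.fst h
  simpa using h2

/-- The element of order dividing `3`. -/
theorem U_cube {z3 : List (Fin 9)} (hR3 : evA hat z3 ^ (3 : ℤ) = Th θ ^ (135 : ℤ)) (ha : Th θ ∈ Subgroup.center (AA Γ)) :
    ((evA hat z3 * Th θ ^ (-45 : ℤ)).1) ^ 3 = 1 := by
  have hcm : Commute (evA hat z3) (Th θ ^ (-45 : ℤ)) := by
    have := Subgroup.mem_center_iff.1 (zpow_mem ha (-45 : ℤ)) (evA hat z3)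
    exact this
  have h : (evA hat z3 * Th θ ^ (-45 : ℤ)) ^ (3 : ℤ) = 1 := by
    rw [hcm.mul_zpow, hR3, ← zpow_mul, ← zpow_add]
    norm_num
  have h2 := congrArg Prod.fst h
  simpa using h2

end Main

end Cfsg.Agent.Lib.Fischer.M22.Mult.Grade
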