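/-
Facts in the presented group `Fi₂₂`: the Coxeter relations of the generators, the three long words, the embedding of
the Weyl group of type `E₆`, the triviality of `u₄`, and the central words in a central extension.
-/
import Cfsg.Agent.S1696
import Cfsg.Agent.Lib.Compute.TC.MY6.Final
import Cfsg.Agent.Lib.Fischer.M23.Mult.Facts
import Cfsg.Agent.Lib.Fischer.M22.Mult.Grade

set_option autoImplicit false
set_option maxRecDepth 100000

namespace Cfsg.Agent.Lib.Fischer.M22.Mult.Key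

open Cfsg.Agent.Lib.Compute.ToddCoxeterCore Cfsg.Agent.Lib.Compute.ToddCoxeterPresented
  Cfsg.Agent.Lib.Compute.TCFast Cfsg.Agent.Lib.Compute.TCChain
open Cfsg.Agent.Lib.Compute.TC
open Cfsg.Spor Lift Grade
open Cfsg.Agent.Lib.Fischer.M23.Mult.Words (wP adj10 lE6 lE7 lY6 u4Y6 w10Y6)
open Cfsg.Agent.Lib.Fischer.M23.Mult.Grade (AA NodesL lift_wP word_center)
open Cfsg.Agent.Lib.Fischer.M23.Mult.Key (mem_of_walk one_of_walk phi_letter equivariant flat_prod)
open Cfsg.Agent.Lib.Fischer.M23.Mult.Facts (one_of_letters cox_lift rels_lift getD_lt z7W lZ7 z7_one N7)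
open Cfsg.Agent.Lib.Fischer.M23.Mult.Weyl (inj6 inj7)

/-- The nodes of the diagram. -/
def nd : Fin 9 → Fi22.Gen := ![.a, .b, .c, .d, .e, .f, .g, .h, .i]

/-- The index of a generator. -/
def idx : Fi22.Gen → Fin 9
  | .a => 0 | .b => 1 | .c => 2 | .d => 3 | .e => 4 | .f => 5 | .g => 6 | .h => 7 | .i => 8

theorem idx_nd : ∀ x, idx (nd x) = x := by decide
theorem nd_idx : ∀ y, nd (idx y) = y := by intro y; cases y <;> rfl

/-- The generators of the presented group. -/
def gF (x : Fin 9) : Fi22 := PresentedGroup.of (nd x)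

theorem label_eq : ∀ x y : Fi22.Gen, coxLabel Fi22.edges x y =
    if idx x = idx y then 1 else if adj9 (idx x) (idx y) = true then 3 else 2 := by
  intro x y
  cases x <;> cases y <;> decide

theorem mem_nodes : ∀ x : Fi22.Gen, x ∈ coxNodes Fi22.edges := by
  intro x
  cases x <;> decide

section Nodes

variable {Q : Type*} [Group Q]

theorem nodes_of_label {f : Fin 9 → Q}
    (h : ∀ x y, (f x * f y) ^ (if x = y then 1 else if adj9 x y = true then 3 else 2) = 1) : NodesN f := by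
  have hsq : ∀ x, f x * f x = 1 := by
    intro x
    simpa using h x x
  refine ⟨hsq, ?_, ?_⟩
  · intro x y hxy
    have hne : x ≠ y := by
      rintro rfl
      revert hxy
      revert x
      decide
    have h3 := h x y
    rw [if_neg hne, if_pos hxy] at h3
    have hxi : (f x)⁻¹ = f x := inv_eq_of_mul_eq_one_left (hsq x)
    have hyi : (f y)⁻¹ = f y := inv_eq_of_mul_eq_one_left (hsq y)
    have h4 : f x * f y * f x * (f y * f x * f y) = 1 := by
      rw [← h3]
      simp only [pow_succ, pow_zero, one_mul]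
      group
    have h5 := eq_inv_of_mul_eq_one_left h4
    rw [h5]
    simp only [mul_inv_rev, hxi, hyi]
    group
  · intro x y hne hxy
    have h2 := h x y
    rw [if_neg hne, if_neg (by simp [hxy])] at h2
    have hxi : (f x)⁻¹ = f x := inv_eq_of_mul_eq_one_left (hsq x)
    have hyi : (f y)⁻¹ = f y := inv_eq_of_mul_eq_one_left (hsq y)
    have h4 : f x * f y * (f x * f y) = 1 := by rw [← h2, pow_two]
    have h5 := eq_inv_of_mul_eq_one_left h4
    rw [h5]
    simp only [mul_inv_rev, hxi, hyi]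

theorem label_of_nodes {f : Fin 9 → Q} (hf : NodesN f) (x y : Fin 9) :
    (f x * f y) ^ (if x = y then 1 else if adj9 x y = true then 3 else 2) = 1 := by
  by_cases hxy : x = y
  · subst hxy
    simpa using hf.sq x
  · rw [if_neg hxy]
    cases hadj : adj9 x y with
    | true =>
      simp only [if_true]
      have hb := hf.br x y hadj
      calc (f x * f y) ^ 3 = (f x * f y * f x) * (f y * f x * f y) := by
            simp only [pow_succ, pow_zero, one_mul]; group
        _ = (f y * f x * f y) * (f y * f x * f y) := by rw [hb]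
        _ = f y * f x * (f y * f y) * f x * f y := by group
        _ = 1 := by
            rw [hf.sq y, mul_one, mul_assoc (f y), hf.sq x, mul_one, hf.sq y]
    | false =>
      simp only [Bool.false_eq_true, if_false]
      have hc := hf.cm x y hxy hadj
      calc (f x * f y) ^ 2 = f x * f y * (f x * f y) := pow_two _
        _ = f y * f x * (f x * f y) := by rw [hc]
        _ = f y * (f x * f x) * f y := by group
        _ = 1 := by rw [hf.sq x, mul_one, hf.sq y]

end Nodes

theorem nodes_gF : NodesN gF := by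
  apply nodes_of_label
  intro x y
  have h : (FreeGroup.of (nd x) * FreeGroup.of (nd y)) ^ coxLabel Fi22.edges (nd x) (nd y) ∈
      coxRelators Fi22.edges ∪ {r | r ∈ Fi22.extra} :=
    Or.inl ⟨nd x, mem_nodes _, nd y, mem_nodes _, rfl⟩
  have h1 := PresentedGroup.one_of_mem h
  rw [map_pow, map_mul, label_eq, idx_nd, idx_nd] at h1
  exact h1

/-- The word `(a b c d e f h)^9`. -/
def zA : List (Fin 9) := (List.replicate 9 ([0, 1, 2, 3, 4, 5, 7] : List (Fin 9))).flatten
/-- The word `(b c d e f g h)^9`. -/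
def zB : List (Fin 9) := (List.replicate 9 ([1, 2, 3, 4, 5, 6, 7] : List (Fin 9))).flatten
/-- The spider word. -/
def zS : List (Fin 9) := (List.replicate 10 ([3, 2, 1, 3, 4, 5, 3, 7, 8] : List (Fin 9))).flatten

theorem zS_gF : (zS.map gF).prod = 1 := by
  have h : (Fi22.d * Fi22.c * Fi22.b * Fi22.d * Fi22.e * Fi22.f * Fi22.d * Fi22.h * Fi22.i) ^ 10 ∈
      coxRelators Fi22.edges ∪ {r | r ∈ Fi22.extra} := Or.inr (by simp [Fi22.extra])
  have h1 := PresentedGroup.one_of_mem h
  rw [zS, flat_prod]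
  rw [map_pow] at h1
  rw [← h1]
  congr 1

theorem zA_gF : (zA.map gF).prod = 1 := by
  have h : (Fi22.a * Fi22.b * Fi22.c * Fi22.d * Fi22.e * Fi22.f * Fi22.h) ^ 9 ∈
      coxRelators Fi22.edges ∪ {r | r ∈ Fi22.extra} := Or.inr (by simp [Fi22.extra])
  have h1 := PresentedGroup.one_of_mem h
  rw [zA, flat_prod]
  rw [map_pow] at h1
  rw [← h1]
  congr 1

theorem zB_gF : (zB.map gF).prod = 1 := by
  have h : (Fi22.b * Fi22.c * Fi22.d * Fi22.e * Fi22.f * Fi22.g * Fi22.h) ^ 9 ∈
      coxRelators Fi22.edges ∪ {r | r ∈ Fi22.extra} := Or.inr (by simp [Fi22.extra])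
  have h1 := PresentedGroup.one_of_mem h
  rw [zB, flat_prod]
  rw [map_pow] at h1
  rw [← h1]
  congr 1

theorem gen_gF : Subgroup.closure (Set.range gF) = ⊤ := by
  have : Set.range gF = Set.range (PresentedGroup.of (rels := coxRelators Fi22.edges ∪ {r | r ∈ Fi22.extra})) := by
    ext z
    constructor
    · rintro ⟨x, rfl⟩
      exact ⟨nd x, rfl⟩
    · rintro ⟨y, rfl⟩
      exact ⟨idx y, by simp [gF, nd_idx]⟩
  rw [this]
  exact PresentedGroup.closure_range_of _

theorem hU_gF (Q' : Type) [Group Q'] (f : Fin 9 → Q') (hf : NodesN f) (h1 : (zA.map f).prod = 1)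
    (h2 : (zB.map f).prod = 1) (h3 : (zS.map f).prod = 1) : ∃ φ : Fi22 →* Q', ∀ x, φ (gF x) = f x := by
  have hrel : ∀ r ∈ coxRelators Fi22.edges ∪ {r | r ∈ Fi22.extra}, FreeGroup.lift (f ∘ idx) r = 1 := by
    rintro r (⟨x, -, y, -, rfl⟩ | hr)
    · rw [map_pow, map_mul, FreeGroup.lift_apply_of, FreeGroup.lift_apply_of, label_eq]
      exact label_of_nodes hf (idx x) (idx y)
    · simp only [Fi22.extra, Set.mem_setOf_eq, List.mem_cons, List.not_mem_nil, or_false] at hr
      rcases hr with rfl | rfl | rfl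
      · rw [zS, flat_prod] at h3
        rw [← h3, map_pow]
        congr 1
      · rw [zA, flat_prod] at h1
        rw [← h1, map_pow]
        congr 1
      · rw [zB, flat_prod] at h2
        rw [← h2, map_pow]
        congr 1
  refine ⟨PresentedGroup.toGroup (f := f ∘ idx) hrel, fun x => ?_⟩
  have : gF x = PresentedGroup.of (nd x) := rfl
  rw [this, PresentedGroup.toGroup.of]
  simp [idx_nd]

/-! ### The table of `Fi₂₂` -/

/-- The representation of `Fi₂₂` on cosets. -/
noncomputable abbrev rhoF : Fi22 →* Equiv.Perm (Fin Fi22a.cfg.N) := phiG Fi22a.hR Fi22a.small Fi22a.big Fi22a.hgens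

theorem NF : Fi22a.cfg.N = 3510 := by decide +kernel

theorem letters_nd : ∀ y : Fin 9, toLetters Fi22a.D.lets (FreeGroup.of (nd y)) = [y.val] := by decide +kernel

theorem rho_gF (y : Fin 9) (j : Fin Fi22a.cfg.N) : ((rhoF (gF y) j : Fin Fi22a.cfg.N) : ℕ) = Fi22a.cfg.T y.val j.val := by
  have h := phi_letter Fi22a.hR Fi22a.small Fi22a.big Fi22a.hgens (nd y) j
  rw [letters_nd] at h
  exact h

theorem mk_map (l : List (Fin 9)) :
    PresentedGroup.mk Fi22a.RR (FreeGroup.map nd (wP l)) = (l.map gF).prod := by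
  rw [← lift_wP]
  have : (PresentedGroup.mk Fi22a.RR).comp (FreeGroup.map nd) = FreeGroup.lift gF := by
    ext x
    simp [gF]
    rfl
  exact DFunLike.congr_fun this (wP l)

/-- The word `u₄` on the nodes of `Y₃₃₂`. -/
def u4N : List (Fin 9) := (List.replicate 4 ([1, 2, 3, 7, 4, 5, 3, 4, 2, 3, 7, 8] : List (Fin 9))).flatten

/-- Its letters. -/
def lU4 : List ℕ := (u4N.map (·.val)).reverse

theorem letters_u4 : toLetters Fi22a.D.lets (FreeGroup.map nd (wP u4N)) = lU4 := by decide +kernel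

theorem all_u4 : allFrom (chkRelF Fi22a.cfg [lU4]) 3510 0 = true := by decide +kernel

/-- The word `u₄` is trivial in `Fi₂₂`. -/
theorem u4_gF : (u4N.map gF).prod = 1 := by
  rw [← mk_map]
  exact one_of_letters Fi22a.hR Fi22a.small Fi22a.big Fi22a.hgens Cfsg.Agent.S1696.inj.1 _ _ letters_u4 _ NF all_u4

/-- Its letters. -/
def lZL : List ℕ := (zL.map (·.val)).reverse

theorem letters_zL : toLetters Fi22a.D.lets (FreeGroup.map nd (wP zL)) = lZL := by decide +kernel

theorem all_zL : allFrom (chkRelF Fi22a.cfg [lZL]) 3510 0 = true := by decide +kernel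

/-- The word `(c d e f g h i)^9` is trivial in `Fi₂₂`. -/
theorem zL_gF : (zL.map gF).prod = 1 := by
  rw [← mk_map]
  exact one_of_letters Fi22a.hR Fi22a.small Fi22a.big Fi22a.hgens Cfsg.Agent.S1696.inj.1 _ _ letters_zL _ NF all_zL

/-! ### `E₇` -/

/-- The labels of `E₇` containing the word `zA`. -/
def rhoA : Fin 7 → Fin 9 := ![5, 4, 3, 2, 1, 0, 7]

/-- The labels of `E₇` containing the word `zB`. -/
def rhoB : Fin 7 → Fin 9 := ![1, 2, 3, 4, 5, 6, 7]

theorem zA_map : z7W.map rhoA = zA ++ zA := by decide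

theorem rhoA_inj : Function.Injective rhoA := by decide

theorem rhoA_adj : ∀ i j, adj10 (lE7 i) (lE7 j) = adj9 (rhoA i) (rhoA j) := by decide

/-- The square of the second word on `E₇`. -/
def z7B : List (Fin 7) := (List.replicate 18 ([0, 1, 2, 3, 4, 5, 6] : List (Fin 7))).flatten

/-- Its letters. -/
def lZ7B : List ℕ := (z7B.map (·.val)).reverse

theorem letters_z7B : toLetters MWE7.D.lets (wP z7B) = lZ7B := by decide +kernel

theorem all_z7B : allFrom (chkRelF MWE7.cfg [lZ7B]) 56 0 = true := by decide +kernel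

theorem z7B_one : PresentedGroup.mk MWE7.RR (wP z7B) = 1 :=
  one_of_letters MWE7.hR MWE7.small MWE7.big MWE7.hgens inj7 _ _ letters_z7B _ N7 all_z7B

theorem zB_map : z7B.map rhoB = zB ++ zB := by decide

theorem rhoB_inj : Function.Injective rhoB := by decide

theorem rhoB_adj : ∀ i j, adj10 (lE7 i) (lE7 j) = adj9 (rhoB i) (rhoB j) := by decide

/-! ### `E₆` -/

/-- The orbit of length `27` of `E₆` in the table of `Fi₂₂`. -/
def pL6 : List ℕ := [0, 1, 3, 5, 8, 9, 13, 14, 23, 24, 36, 38, 56, 57, 59, 81, 82, 112, 114, 144, 147, 183, 184, 230, 291, 369, 472]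

/-- The nodes of `E₆`. -/
def lE6F : Fin 6 → Fin 9 := ![1, 2, 3, 4, 5, 7]

/-- The nodes of `Y₂₂₂`. -/
def lY6F : Fin 7 → Fin 9 := ![1, 2, 3, 4, 5, 7, 8]

theorem pL6_lt : ∀ x ∈ pL6, x < 3510 := by decide +kernel

/-- The coset points of `E₆` in the table of `Fi₂₂`. -/
noncomputable def P6 (i : Fin MWE6.cfg.N) : Fin Fi22a.cfg.N :=
  ⟨pL6.getD i.1 0, by rw [NF]; exact getD_lt (by norm_num) pL6_lt _⟩

theorem chk6 : (List.range 6).all (fun x => (List.range 27).all fun i =>
    Nat.beq (Fi22a.cfg.T (lE6F (Fin.ofNat 6 x)).val (pL6.getD i 0)) (pL6.getD (MWE6.cfg.T x i) 0)) = true := by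
  decide +kernel

theorem nodup6 : (List.range 27).all (fun i => (List.range 27).all fun j =>
    !(Nat.beq (pL6.getD i 0) (pL6.getD j 0)) || Nat.beq i j) = true := by
  decide +kernel

/-- The map of `W(E₆)` to `Fi₂₂`. -/
noncomputable def piE6 : PresentedGroup MWE6.RR →* Fi22 :=
  PresentedGroup.toGroup (f := gF ∘ lE6F) (fun _ hr => cox_lift (NodesN.toL nodes_gF (by decide) (by decide)) hr)

theorem piE6_of (x : Fin 6) : piE6 (PresentedGroup.of x) = gF (lE6F x) := by
  simp [piE6, PresentedGroup.toGroup.of]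

theorem N6 : MWE6.cfg.N = 27 := by decide +kernel

theorem letters6 : ∀ x : Fin 6, toLetters MWE6.D.lets (FreeGroup.of x) = [x.val] := by decide +kernel

theorem P6_inj : Function.Injective P6 := by
  intro i j hij
  have h1 : pL6.getD i.1 0 = pL6.getD j.1 0 := congrArg Fin.val hij
  have hi : i.1 < 27 := by rw [← N6]; exact i.2
  have hj : j.1 < 27 := by rw [← N6]; exact j.2
  have h2 := List.all_eq_true.1 nodup6 i.1 (List.mem_range.2 hi)
  have h3 := List.all_eq_true.1 h2 j.1 (List.mem_range.2 hj)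
  rw [h1] at h3
  simp at h3
  exact Fin.ext h3

theorem equi6 (x : Fin 6) (i : Fin MWE6.cfg.N) :
    rhoF (piE6 (PresentedGroup.of x)) (P6 i) = P6 (phiG MWE6.hR MWE6.small MWE6.big MWE6.hgens (PresentedGroup.of x) i) := by
  have hi : i.1 < 27 := by rw [← N6]; exact i.2
  apply Fin.ext
  rw [piE6_of, rho_gF]
  show _ = pL6.getD ((phiG MWE6.hR MWE6.small MWE6.big MWE6.hgens (PresentedGroup.of x) i : Fin MWE6.cfg.N) : ℕ) 0
  rw [phi_letter, letters6]
  have h2 := List.all_eq_true.1 chk6 x.1 (List.mem_range.2 x.2)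
  have h3 := List.all_eq_true.1 h2 i.1 (List.mem_range.2 hi)
  have h4 := Nat.eq_of_beq_eq_true h3
  have h5 : Fi22a.cfg.T (lE6F x).val (pL6.getD i.1 0) = pL6.getD (MWE6.cfg.T x.1 i.1) 0 := by simpa using h4
  exact h5

/-- `W(E₆)` embeds in `Fi₂₂`. -/
theorem key6 (v : PresentedGroup MWE6.RR) (hv : piE6 v = 1) : v = 1 := by
  apply inj6
  rw [map_one]
  ext1 i
  apply P6_inj
  have h := equivariant (phiG MWE6.hR MWE6.small MWE6.big MWE6.hgens) (rhoF.comp piE6) P6 equi6 v i
  rw [← h]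
  simp [hv]

/-! ### The central words in a central extension -/

/-- The word on `Y₂₂₂`. -/
def w6 : List (Fin 7) := w10Y6 ++ w10Y6 ++ w10Y6

theorem walk6 : MY6.cfg.walkEnd (toLetters MY6.D.lets (wP w6)) 0 = 0 := by decide +kernel

theorem map6 : w6.map lY6F = zS ++ zS ++ zS := by decide

theorem u4map6 : u4Y6.map lY6F = u4N := by decide

theorem lenA : zA.length = 63 := by decide

theorem lenB : zB.length = 63 := by decide

theorem lenS : zS.length = 90 := by decide

section Quot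

variable {Γ : Type} [Group Γ] {σ : Γ →* Fi22} {hat : Fin 9 → Γ} {θ : Γ}

/-- The normal closure of `Th`. -/
abbrev NN (θ : Γ) : Subgroup (AA Γ) := Subgroup.normalClosure ({Th θ} : Set (AA Γ))

/-- The family in the quotient. -/
noncomputable def fQ (hat : Fin 9 → Γ) (θ : Γ) (x : Fin 9) : AA Γ ⧸ NN θ := (QuotientGroup.mk' (NN θ)) (X hat x)

theorem th_mem : Th θ ∈ NN θ := Subgroup.subset_normalClosure rfl

theorem nodes_fQ (H : HatsN σ gF hat θ) : NodesN (fQ hat θ) := nodes_quot H (NN θ) th_mem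

theorem NN_sigma (H : HatsN σ gF hat θ) : ∀ x ∈ NN θ, σ x.1 = 1 := by
  have h : NN θ ≤ (σ.comp (MonoidHom.fst _ _)).ker := by
    apply Subgroup.normalClosure_le_normal
    rintro _ rfl
    exact H.ker
  exact fun x hx => h hx

/-- The map back to the group. -/
noncomputable def tauQ (H : HatsN σ gF hat θ) : AA Γ ⧸ NN θ →* Fi22 := tauOf σ (NN θ) (NN_sigma H)

theorem tauQ_fQ (H : HatsN σ gF hat θ) (x : Fin 9) : tauQ H (fQ hat θ x) = gF x := H.lift x

theorem tauQ_evA (H : HatsN σ gF hat θ) (l : List (Fin 9)) :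
    tauQ H ((QuotientGroup.mk' (NN θ)) (evA hat l)) = (l.map gF).prod := sigma_word H l

theorem word_fQ (l : List (Fin 9)) : (l.map (fQ hat θ)).prod = (QuotientGroup.mk' (NN θ)) (evA hat l) :=
  quot_word (NN θ) l

theorem evA_append (l₁ l₂ : List (Fin 9)) : evA hat (l₁ ++ l₂) = evA hat l₁ * evA hat l₂ := by
  simp [evA]

theorem word_comp {n : ℕ} (l : Fin n → Fin 9) (w : List (Fin n)) :
    (w.map (fQ hat θ ∘ l)).prod = (QuotientGroup.mk' (NN θ)) (evA hat (w.map l)) := by
  rw [← List.map_map, word_fQ]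

/-- A central word commutes with everything in the quotient. -/
theorem central_comm (H : HatsN σ gF hat θ) (hK : σ.ker ≤ Subgroup.center Γ) {l : List (Fin 9)}
    (hl : (l.map gF).prod = 1) (y : AA Γ ⧸ NN θ) :
    (QuotientGroup.mk' (NN θ)) (evA hat l) * y = y * (QuotientGroup.mk' (NN θ)) (evA hat l) := by
  induction y using QuotientGroup.induction_on with
  | H y =>
    have h := Subgroup.mem_center_iff.1 (Grade.word_center H hK hl) y
    show (QuotientGroup.mk' (NN θ)) (evA hat l) * (QuotientGroup.mk' (NN θ)) y =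
      (QuotientGroup.mk' (NN θ)) y * (QuotientGroup.mk' (NN θ)) (evA hat l)
    rw [← map_mul, ← map_mul, h]

/-- An element of the image of the subgroup of a coset table. -/
theorem mem_image {n m : ℕ} {R : Set (FreeGroup (Fin n))} {R' : Set (FreeGroup (Fin m))} {Q : Type*} [Group Q]
    (ψ : PresentedGroup R →* Q) (ψ' : PresentedGroup R' →* Q) (Hs : List (FreeGroup (Fin n)))
    (h : ∀ w ∈ Hs, ∃ v, ψ' v = ψ (PresentedGroup.mk R w)) :
    ∀ u ∈ HOf R Hs, ∃ v, ψ' v = ψ u := by
  rintro _ ⟨w, hw, rfl⟩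
  induction hw using Subgroup.closure_induction with
  | mem w hw => exact h w hw
  | one => exact ⟨1, by simp⟩
  | mul a b _ _ iha ihb =>
    obtain ⟨u, hu⟩ := iha
    obtain ⟨v, hv⟩ := ihb
    exact ⟨u * v, by simp [hu, hv]⟩
  | inv a _ ih =>
    obtain ⟨u, hu⟩ := ih
    exact ⟨u⁻¹, by simp [hu]⟩

/-- The two maps of a presented group agree through `tauQ`. -/
theorem pi_tau {m : ℕ} {lE : Fin m → Fin 9} {R' : Set (FreeGroup (Fin m))} (H : HatsN σ gF hat θ)
    (ψE : PresentedGroup R' →* AA Γ ⧸ NN θ) (hψE : ∀ x, ψE (PresentedGroup.of x) = fQ hat θ (lE x))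
    (pi : PresentedGroup R' →* Fi22) (hpi : ∀ x, pi (PresentedGroup.of x) = gF (lE x))
    (v : PresentedGroup R') : pi v = tauQ H (ψE v) := by
  have h : pi = (tauQ H).comp ψE := by
    apply PresentedGroup.ext
    intro x
    rw [hpi, MonoidHom.comp_apply, hψE, tauQ_fQ]
  rw [h]
  rfl

/-- From membership in the normal closure. -/
theorem pow_of_quot (H : HatsN σ gF hat θ) (hK : σ.ker ≤ Subgroup.center Γ) {l : List (Fin 9)}
    (h1 : (QuotientGroup.mk' (NN θ)) (evA hat l) = 1) (n : ℤ) (hn : (l.length : ℤ) = 2 * n) :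
    evA hat l = Th θ ^ n := by
  apply eq_pow_of_mem H hK ((QuotientGroup.eq_one_iff _).1 h1)
  rw [evA_snd, hn]

variable (H : HatsN σ gF hat θ) (hK : σ.ker ≤ Subgroup.center Γ)
include H hK

/-- The first word of degree `63` squares to a power of `θ`. -/
theorem hR1 : evA hat zA ^ (2 : ℤ) = Th θ ^ (63 : ℤ) := by
  have hL : NodesL lE7 (fQ hat θ ∘ rhoA) := NodesN.toL (nodes_fQ H) rhoA_inj rhoA_adj
  let ψ : PresentedGroup MWE7.RR →* AA Γ ⧸ NN θ :=
    PresentedGroup.toGroup (f := fQ hat θ ∘ rhoA) (fun _ hr => cox_lift hL hr)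
  have h1 : ψ (PresentedGroup.mk MWE7.RR (wP z7W)) = 1 := by rw [z7_one, map_one]
  have h2 : ψ (PresentedGroup.mk MWE7.RR (wP z7W)) = (QuotientGroup.mk' (NN θ)) (evA hat (zA ++ zA)) := by
    show FreeGroup.lift (fQ hat θ ∘ rhoA) (wP z7W) = _
    rw [lift_wP, word_comp, zA_map]
  rw [h2] at h1
  have h3 := pow_of_quot H hK h1 63 (by rw [List.length_append, lenA]; norm_num)
  rw [zpow_two, ← evA_append]
  exact h3

/-- The second word of degree `63` squares to a power of `θ`. -/
theorem hR2 : evA hat zB ^ (2 : ℤ) = Th θ ^ (63 : ℤ) := by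
  have hL : NodesL lE7 (fQ hat θ ∘ rhoB) := NodesN.toL (nodes_fQ H) rhoB_inj rhoB_adj
  let ψ : PresentedGroup MWE7.RR →* AA Γ ⧸ NN θ :=
    PresentedGroup.toGroup (f := fQ hat θ ∘ rhoB) (fun _ hr => cox_lift hL hr)
  have h1 : ψ (PresentedGroup.mk MWE7.RR (wP z7B)) = 1 := by rw [z7B_one, map_one]
  have h2 : ψ (PresentedGroup.mk MWE7.RR (wP z7B)) = (QuotientGroup.mk' (NN θ)) (evA hat (zB ++ zB)) := by
    show FreeGroup.lift (fQ hat θ ∘ rhoB) (wP z7B) = _
    rw [lift_wP, word_comp, zB_map]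
  rw [h2] at h1
  have h3 := pow_of_quot H hK h1 63 (by rw [List.length_append, lenB]; norm_num)
  rw [zpow_two, ← evA_append]
  exact h3

/-- The cube of the word of degree `90` is a power of `θ`. -/
theorem hR3 : evA hat zS ^ (3 : ℤ) = Th θ ^ (135 : ℤ) := by
  have hL : NodesL lY6 (fQ hat θ ∘ lY6F) := NodesN.toL (nodes_fQ H) (by decide) (by decide)
  have hu : ∀ x, (u4Y6.map (fQ hat θ ∘ lY6F)).prod * (fQ hat θ ∘ lY6F) x =
      (fQ hat θ ∘ lY6F) x * (u4Y6.map (fQ hat θ ∘ lY6F)).prod := by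
    intro x
    rw [word_comp, u4map6]
    exact central_comm H hK u4_gF _
  let ψ : PresentedGroup MY6.RR →* AA Γ ⧸ NN θ :=
    PresentedGroup.toGroup (f := fQ hat θ ∘ lY6F) (fun _ hr => rels_lift hL hu hr)
  have hLE : NodesL lE6 (fQ hat θ ∘ lE6F) := NodesN.toL (nodes_fQ H) (by decide) (by decide)
  let ψE : PresentedGroup MWE6.RR →* AA Γ ⧸ NN θ :=
    PresentedGroup.toGroup (f := fQ hat θ ∘ lE6F) (fun _ hr => cox_lift hLE hr)
  have hψE : ∀ x, ψE (PresentedGroup.of x) = fQ hat θ (lE6F x) := fun x => by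
    simp [ψE, PresentedGroup.toGroup.of]
  have hm := mem_of_walk MY6.hR MY6.small MY6.big MY6.hgens (wP w6) walk6
  obtain ⟨v, hv⟩ := mem_image ψ ψE MY6.D.Hs (by
    intro w hw
    have : ∀ i : Fin 6, ψE (PresentedGroup.of i) = ψ (PresentedGroup.mk MY6.RR (FreeGroup.of (Fin.castSucc i))) := by
      intro i
      rw [hψE]
      show _ = FreeGroup.lift (fQ hat θ ∘ lY6F) (FreeGroup.of (Fin.castSucc i))
      rw [FreeGroup.lift_apply_of]
      have e : lY6F (Fin.castSucc i) = lE6F i := by revert i; decide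
      simp only [Function.comp_apply, e]
    simp only [MY6.D, List.mem_cons, List.not_mem_nil, or_false] at hw
    rcases hw with rfl | rfl | rfl | rfl | rfl | rfl
    · exact ⟨_, this 0⟩
    · exact ⟨_, this 1⟩
    · exact ⟨_, this 2⟩
    · exact ⟨_, this 3⟩
    · exact ⟨_, this 4⟩
    · exact ⟨_, this 5⟩) _ hm
  have h2 : ψ (PresentedGroup.mk MY6.RR (wP w6)) = (QuotientGroup.mk' (NN θ)) (evA hat (zS ++ zS ++ zS)) := by
    show FreeGroup.lift (fQ hat θ ∘ lY6F) (wP w6) = _
    rw [lift_wP, word_comp, map6]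
  rw [h2] at hv
  have h3 := pi_tau H ψE hψE piE6 piE6_of v
  rw [hv, tauQ_evA] at h3
  have h4 : piE6 v = 1 := by
    rw [h3]
    simp [zS_gF]
  have h5 := key6 v h4
  rw [h5, map_one] at hv
  have h6 := pow_of_quot H hK hv.symm 135 (by simp only [List.length_append, lenS]; norm_num)
  rw [evA_append, evA_append] at h6
  rw [← h6]
  have e : ((3 : ℤ)) = ((3 : ℕ) : ℤ) := rfl
  rw [e, zpow_natCast]
  simp only [pow_succ, pow_zero, one_mul]

end Quot

/-- A surjection from a cyclic group of order `m`. -/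
theorem exists_surj_of_cyclic {B : Type*} [CommGroup B] {u : B} {m : ℕ} (h1 : u ^ m = 1)
    (h2 : ∀ x : B, x ∈ Subgroup.zpowers u) : ∃ π : Multiplicative (ZMod m) →* B, Function.Surjective π := by
  let f : ℤ →+ Additive B := zmultiplesHom _ (Additive.ofMul u)
  have hf : f (m : ℤ) = 0 := by
    show (m : ℤ) • Additive.ofMul u = 0
    rw [natCast_zsmul, ← ofMul_pow, h1]
    rfl
  let g : ZMod m →+ Additive B := ZMod.lift m ⟨f, hf⟩
  refine ⟨AddMonoidHom.toMultiplicativeLeft g, fun x => ?_⟩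
  obtain ⟨k, rfl⟩ := h2 x
  refine ⟨Multiplicative.ofAdd ((k : ℤ) : ZMod m), ?_⟩
  show Additive.toMul (g ((k : ℤ) : ZMod m)) = _
  rw [ZMod.lift_coe]
  show Additive.toMul (f k) = u ^ k
  show Additive.toMul (k • Additive.ofMul u) = u ^ k
  rw [← ofMul_zpow]
  rfl

/-- The kernel of every finite stem extension of `Fi₂₂` is a quotient of the cyclic group of order `6`. -/
theorem exists_pi (Γ : Type) [Group Γ] (σ : Γ →* Fi22) (hσ : Function.Surjective σ) (hK : σ.ker ≤ Subgroup.center Γ)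
    (hc : σ.ker ≤ commutator Γ) : ∃ π : Multiplicative (ZMod 6) →* σ.ker, Function.Surjective π := by
  obtain ⟨hat, θ, H⟩ := exists_hats hσ hK nodes_gF zL_gF
  set S : Γ := (evA hat zA * (evA hat zB)⁻¹).1 with hS
  set U : Γ := (evA hat zS * Th θ ^ (-45 : ℤ)).1 with hU
  have hSk : S ∈ σ.ker := by
    rw [MonoidHom.mem_ker, hS, Prod.fst_mul, map_mul, sigma_word H, Prod.fst_inv, map_inv, sigma_word H, zA_gF, zB_gF]
    simp
  have hUk : U ∈ σ.ker := by
    rw [MonoidHom.mem_ker, hU, Prod.fst_mul, map_mul, sigma_word H, Prod.pow_fst, map_zpow, zS_gF]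
    have : σ (Th θ).1 = 1 := H.ker
    rw [this]
    simp
  have hS2 : S ^ 2 = 1 := S_sq (hR1 H hK) (hR2 H hK) (Cfsg.Agent.Lib.Fischer.M22.Mult.Grade.word_center H hK zA_gF)
  have hU3 : U ^ 3 = 1 := U_cube (hR3 H hK) (Cfsg.Agent.Lib.Fischer.M23.Mult.Grade.prod_center (theta_center H hK))
  have hcm : Commute S U := Subgroup.mem_center_iff.1 (hK hSk) U |>.symm
  letI : CommGroup σ.ker :=
    { (inferInstance : Group σ.ker) with
      mul_comm := fun x y => Subtype.ext (Subgroup.mem_center_iff.1 (hK y.2) x.1) }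
  let w : σ.ker := ⟨S * U, mul_mem hSk hUk⟩
  have hw6 : w ^ 6 = 1 := by
    apply Subtype.ext
    show (S * U) ^ 6 = 1
    rw [hcm.mul_pow]
    have e1 : S ^ 6 = (S ^ 2) ^ 3 := by rw [← pow_mul]
    have e2 : U ^ 6 = (U ^ 3) ^ 2 := by rw [← pow_mul]
    rw [e1, e2, hS2, hU3]
    simp
  refine exists_surj_of_cyclic hw6 ?_
  intro k
  obtain ⟨B, D, hk⟩ := ker_gen H hK zA zB zS zA_gF zB_gF zS_gF gen_gF hU_gF (hR1 H hK) (hR2 H hK) (hR3 H hK) lenA lenB lenS
    (MonoidHom.mem_ker.1 k.2) (hc k.2)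
  refine ⟨3 * B + 4 * D, ?_⟩
  apply Subtype.ext
  show (S * U) ^ (3 * B + 4 * D) = k.1
  rw [hk, hcm.mul_zpow]
  have hS2' : S ^ (2 : ℤ) = 1 := by exact_mod_cast hS2
  have hU3' : U ^ (3 : ℤ) = 1 := by exact_mod_cast hU3
  have e1 : S ^ (3 * B + 4 * D) = S ^ B := by
    have : 3 * B + 4 * D = 2 * (B + 2 * D) + B := by ring
    rw [this, zpow_add, zpow_mul, hS2', one_zpow, one_mul]
  have e2 : U ^ (3 * B + 4 * D) = U ^ D := by
    have : 3 * B + 4 * D = 3 * (B + D) + D := by ring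
    rw [this, zpow_add, zpow_mul, hU3', one_zpow, one_mul]
  rw [e1, e2]

end Cfsg.Agent.Lib.Fischer.M22.Mult.Key
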