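/-
A monomial representation on `3 · 61776` points of the free group on the generators of the diagram `Y₃₃₂`, in which
the relations of the diagram and the two words of degree `63` hold and the spider word is a central element of order
three.
-/
import Cfsg.Agent.Lib.Fischer.M22.Mult.MonoData

set_option autoImplicit false
set_option maxRecDepth 1000000

namespace Cfsg.Agent.Lib.Fischer.M22.Mult.Mono

open Cfsg.Agent.Lib.Compute.ToddCoxeterCore Cfsg.Agent.Lib.Compute.ToddCoxeterPresented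

/-- `if b then t else e` on booleans, through the recursor. -/
local notation "bB(" b ", " t ", " e ")" => Bool.rec (motive := fun _ => Bool) e t b

/-- The table entry of the point `i` and the letter `x`. -/
noncomputable def ent (i x : ℕ) : ℕ :=
  TT.fld tM (nat_lit 18) (nat_lit 1023) (nat_lit 262143) (Nat.add (Nat.mul i (nat_lit 9)) x)

/-- The central shift. -/
def Cf (p : ℕ) : ℕ :=
  Nat.add (Nat.mul (nat_lit 3) (Nat.div p (nat_lit 3))) (Nat.mod (Nat.succ (Nat.mod p (nat_lit 3))) (nat_lit 3))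

/-- The action of a letter. -/
noncomputable def T3 (x p : ℕ) : ℕ :=
  frc (ent (Nat.div p (nat_lit 3)) x) fun e =>
    Nat.add (Nat.mul (nat_lit 3) (Nat.div e (nat_lit 3)))
      (Nat.mod (Nat.add (Nat.mod e (nat_lit 3)) (Nat.mod p (nat_lit 3))) (nat_lit 3))

/-- Walk along a word. -/
noncomputable def walkM (u : List ℕ) : ℕ → (ℕ → Bool) → Bool :=
  List.rec (motive := fun _ => ℕ → (ℕ → Bool) → Bool)
    (fun i k => k i)
    (fun x _ ih i k => frc (T3 x i) (fun j => ih j k)) u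

theorem walkM_eq (u : List ℕ) (i : ℕ) (k : ℕ → Bool) :
    walkM u i k = k (u.foldl (fun j x => T3 x j) i) := by
  induction u generalizing i with
  | nil => rfl
  | cons x u ih =>
    have : walkM (x :: u) i k = frc (T3 x i) (fun j => walkM u j k) := rfl
    rw [this, frc_eq, ih]
    rfl

/-- The relators: the braid and commuting relations and the two words of degree `63`. -/
def relL : List (List ℕ) := [[nat_lit 1, nat_lit 0, nat_lit 1, nat_lit 0, nat_lit 1, nat_lit 0],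
  [nat_lit 2, nat_lit 0, nat_lit 2, nat_lit 0],
  [nat_lit 3, nat_lit 0, nat_lit 3, nat_lit 0],
  [nat_lit 4, nat_lit 0, nat_lit 4, nat_lit 0],
  [nat_lit 5, nat_lit 0, nat_lit 5, nat_lit 0],
  [nat_lit 6, nat_lit 0, nat_lit 6, nat_lit 0],
  [nat_lit 7, nat_lit 0, nat_lit 7, nat_lit 0],
  [nat_lit 8, nat_lit 0, nat_lit 8, nat_lit 0],
  [nat_lit 2, nat_lit 1, nat_lit 2, nat_lit 1, nat_lit 2, nat_lit 1],
  [nat_lit 3, nat_lit 1, nat_lit 3, nat_lit 1],
  [nat_lit 4, nat_lit 1, nat_lit 4, nat_lit 1],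
  [nat_lit 5, nat_lit 1, nat_lit 5, nat_lit 1],
  [nat_lit 6, nat_lit 1, nat_lit 6, nat_lit 1],
  [nat_lit 7, nat_lit 1, nat_lit 7, nat_lit 1],
  [nat_lit 8, nat_lit 1, nat_lit 8, nat_lit 1],
  [nat_lit 3, nat_lit 2, nat_lit 3, nat_lit 2, nat_lit 3, nat_lit 2],
  [nat_lit 4, nat_lit 2, nat_lit 4, nat_lit 2],
  [nat_lit 5, nat_lit 2, nat_lit 5, nat_lit 2],
  [nat_lit 6, nat_lit 2, nat_lit 6, nat_lit 2],
  [nat_lit 7, nat_lit 2, nat_lit 7, nat_lit 2],
  [nat_lit 8, nat_lit 2, nat_lit 8, nat_lit 2],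
  [nat_lit 4, nat_lit 3, nat_lit 4, nat_lit 3, nat_lit 4, nat_lit 3],
  [nat_lit 5, nat_lit 3, nat_lit 5, nat_lit 3],
  [nat_lit 6, nat_lit 3, nat_lit 6, nat_lit 3],
  [nat_lit 7, nat_lit 3, nat_lit 7, nat_lit 3, nat_lit 7, nat_lit 3],
  [nat_lit 8, nat_lit 3, nat_lit 8, nat_lit 3],
  [nat_lit 5, nat_lit 4, nat_lit 5, nat_lit 4, nat_lit 5, nat_lit 4],
  [nat_lit 6, nat_lit 4, nat_lit 6, nat_lit 4],
  [nat_lit 7, nat_lit 4, nat_lit 7, nat_lit 4],
  [nat_lit 8, nat_lit 4, nat_lit 8, nat_lit 4],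
  [nat_lit 6, nat_lit 5, nat_lit 6, nat_lit 5, nat_lit 6, nat_lit 5],
  [nat_lit 7, nat_lit 5, nat_lit 7, nat_lit 5],
  [nat_lit 8, nat_lit 5, nat_lit 8, nat_lit 5],
  [nat_lit 7, nat_lit 6, nat_lit 7, nat_lit 6],
  [nat_lit 8, nat_lit 6, nat_lit 8, nat_lit 6],
  [nat_lit 8, nat_lit 7, nat_lit 8, nat_lit 7, nat_lit 8, nat_lit 7],
  [nat_lit 7, nat_lit 5, nat_lit 4, nat_lit 3, nat_lit 2, nat_lit 1, nat_lit 0, nat_lit 7, nat_lit 5, nat_lit 4, nat_lit 3, nat_lit 2, nat_lit 1, nat_lit 0, nat_lit 7, nat_lit 5, nat_lit 4, nat_lit 3, nat_lit 2, nat_lit 1, nat_lit 0, nat_lit 7, nat_lit 5, nat_lit 4, nat_lit 3, nat_lit 2, nat_lit 1, nat_lit 0, nat_lit 7, nat_lit 5, nat_lit 4, nat_lit 3, nat_lit 2, nat_lit 1, nat_lit 0, nat_lit 7, nat_lit 5, nat_lit 4, nat_lit 3, nat_lit 2, nat_lit 1, nat_lit 0, nat_lit 7, nat_lit 5, nat_lit 4, nat_lit 3, nat_lit 2, nat_lit 1, nat_lit 0, nat_lit 7, nat_lit 5, nat_lit 4, nat_lit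 3, nat_lit 2, nat_lit 1, nat_lit 0, nat_lit 7, nat_lit 5, nat_lit 4, nat_lit 3, nat_lit 2, nat_lit 1, nat_lit 0],
  [nat_lit 7, nat_lit 6, nat_lit 5, nat_lit 4, nat_lit 3, nat_lit 2, nat_lit 1, nat_lit 7, nat_lit 6, nat_lit 5, nat_lit 4, nat_lit 3, nat_lit 2, nat_lit 1, nat_lit 7, nat_lit 6, nat_lit 5, nat_lit 4, nat_lit 3, nat_lit 2, nat_lit 1, nat_lit 7, nat_lit 6, nat_lit 5, nat_lit 4, nat_lit 3, nat_lit 2, nat_lit 1, nat_lit 7, nat_lit 6, nat_lit 5, nat_lit 4, nat_lit 3, nat_lit 2, nat_lit 1, nat_lit 7, nat_lit 6, nat_lit 5, nat_lit 4, nat_lit 3, nat_lit 2, nat_lit 1, nat_lit 7, nat_lit 6, nat_lit 5, nat_lit 4, nat_lit 3, nat_lit 2, nat_lit 1, nat_lit 7, nat_lit 6, nat_lit 5, nat_lit 4, nat_lit 3, nat_lit 2, nat_lit 1, nat_lit 7, nat_lit 6, nat_lit 5, nat_lit 4, nat_lit 3, nat_lit 2, nat_lit 1]]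

/-- The spider word. -/
def lS : List ℕ := [nat_lit 8, nat_lit 7, nat_lit 3, nat_lit 5, nat_lit 4, nat_lit 3, nat_lit 1, nat_lit 2, nat_lit 3, nat_lit 8, nat_lit 7, nat_lit 3, nat_lit 5, nat_lit 4, nat_lit 3, nat_lit 1, nat_lit 2, nat_lit 3, nat_lit 8, nat_lit 7, nat_lit 3, nat_lit 5, nat_lit 4, nat_lit 3, nat_lit 1, nat_lit 2, nat_lit 3, nat_lit 8, nat_lit 7, nat_lit 3, nat_lit 5, nat_lit 4, nat_lit 3, nat_lit 1, nat_lit 2, nat_lit 3, nat_lit 8, nat_lit 7, nat_lit 3, nat_lit 5, nat_lit 4, nat_lit 3, nat_lit 1, nat_lit 2, nat_lit 3, nat_lit 8, nat_lit 7, nat_lit 3, nat_lit 5, nat_lit 4, nat_lit 3, nat_lit 1, nat_lit 2, nat_lit 3, nat_lit 8, nat_lit 7, nat_lit 3, nat_lit 5, nat_lit 4, nat_lit 3, nat_lit 1, nat_lit 2, nat_lit 3, nat_lit 8, nat_lit 7, nat_lit 3, nat_lit 5, nat_lit 4, nat_lit 3, nat_lit 1, nat_lit 2, nat_lit 3, nat_lit 8, nat_lit 7, nat_lit 3, nat_lit 5, nat_lit 4, nat_lit 3, nat_lit 1,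 nat_lit 2, nat_lit 3, nat_lit 8, nat_lit 7, nat_lit 3, nat_lit 5, nat_lit 4, nat_lit 3, nat_lit 1, nat_lit 2, nat_lit 3]

/-- The check of the table at one letter. -/
noncomputable def chkEnt (i x : ℕ) : Bool :=
  frc (ent i x) fun e =>
    bB(Nat.ble (Nat.succ e) (nat_lit 185328),
      frc (ent (Nat.div e (nat_lit 3)) x) fun e' =>
        bB(Nat.beq (Nat.div e' (nat_lit 3)) i,
          Nat.beq (Nat.mod (Nat.add (Nat.mod e' (nat_lit 3)) (Nat.mod e (nat_lit 3))) (nat_lit 3)) (nat_lit 0), false),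
      false)

/-- The check of all relators at a point. -/
noncomputable def chkRels (rels : List (List ℕ)) (p : ℕ) : Bool :=
  List.rec (motive := fun _ => Bool) true
    (fun a _ ih => bB(walkM a p (Nat.beq p), ih, false)) rels

/-- The check of the table entries at a point. -/
noncomputable def chkEnts (l : List ℕ) (i : ℕ) : Bool :=
  List.rec (motive := fun _ => Bool) true
    (fun x _ ih => bB(chkEnt i x, ih, false)) l

/-- The check at the point `i`. -/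
noncomputable def chkBase (i : ℕ) : Bool :=
  frc (Nat.mul (nat_lit 3) i) fun p =>
    bB(chkEnts [nat_lit 0, nat_lit 1, nat_lit 2, nat_lit 3, nat_lit 4, nat_lit 5, nat_lit 6, nat_lit 7, nat_lit 8] i,
      bB(chkRels relL p, walkM lS p (Nat.beq (Nat.succ p)), false), false)

end Cfsg.Agent.Lib.Fischer.M22.Mult.Mono
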