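/- A part of the check of the monomial table. -/
import Cfsg.Agent.Lib.Fischer.M22.Mult.MonoBase

set_option autoImplicit false
set_option maxRecDepth 1000000

namespace Cfsg.Agent.Lib.Fischer.M22.Mult.Mono

open Cfsg.Agent.Lib.Compute.ToddCoxeterCore

theorem chk27_0 : allFrom chkBase (nat_lit 250) (nat_lit 54000) = true := by decide +kernel

theorem chk27_1 : allFrom chkBase (nat_lit 250) (nat_lit 54250) = true := by decide +kernel

theorem chk27_2 : allFrom chkBase (nat_lit 250) (nat_lit 54500) = true := by decide +kernel

theorem chk27_3 : allFrom chkBase (nat_lit 250) (nat_lit 54750) = true := by decide +kernel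

theorem chk27_4 : allFrom chkBase (nat_lit 250) (nat_lit 55000) = true := by decide +kernel

theorem chk27_5 : allFrom chkBase (nat_lit 250) (nat_lit 55250) = true := by decide +kernel

theorem chk27_6 : allFrom chkBase (nat_lit 250) (nat_lit 55500) = true := by decide +kernel

theorem chk27_7 : allFrom chkBase (nat_lit 250) (nat_lit 55750) = true := by decide +kernel

end Cfsg.Agent.Lib.Fischer.M22.Mult.Mono
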