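/-
The monomial representation as permutations of `3 · 61776` points.
-/
import Cfsg.Agent.Lib.Fischer.M22.Mult.MonoChk0
import Cfsg.Agent.Lib.Fischer.M22.Mult.MonoChk1
import Cfsg.Agent.Lib.Fischer.M22.Mult.MonoChk2
import Cfsg.Agent.Lib.Fischer.M22.Mult.MonoChk3
import Cfsg.Agent.Lib.Fischer.M22.Mult.MonoChk4
import Cfsg.Agent.Lib.Fischer.M22.Mult.MonoChk5
import Cfsg.Agent.Lib.Fischer.M22.Mult.MonoChk6
import Cfsg.Agent.Lib.Fischer.M22.Mult.MonoChk7
import Cfsg.Agent.Lib.Fischer.M22.Mult.MonoChk8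
import Cfsg.Agent.Lib.Fischer.M22.Mult.MonoChk9
import Cfsg.Agent.Lib.Fischer.M22.Mult.MonoChk10
import Cfsg.Agent.Lib.Fischer.M22.Mult.MonoChk11
import Cfsg.Agent.Lib.Fischer.M22.Mult.MonoChk12
import Cfsg.Agent.Lib.Fischer.M22.Mult.MonoChk13
import Cfsg.Agent.Lib.Fischer.M22.Mult.MonoChk14
import Cfsg.Agent.Lib.Fischer.M22.Mult.MonoChk15
import Cfsg.Agent.Lib.Fischer.M22.Mult.MonoChk16
import Cfsg.Agent.Lib.Fischer.M22.Mult.MonoChk17
import Cfsg.Agent.Lib.Fischer.M22.Mult.MonoChk18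
import Cfsg.Agent.Lib.Fischer.M22.Mult.MonoChk19
import Cfsg.Agent.Lib.Fischer.M22.Mult.MonoChk20
import Cfsg.Agent.Lib.Fischer.M22.Mult.MonoChk21
import Cfsg.Agent.Lib.Fischer.M22.Mult.MonoChk22
import Cfsg.Agent.Lib.Fischer.M22.Mult.MonoChk23
import Cfsg.Agent.Lib.Fischer.M22.Mult.MonoChk24
import Cfsg.Agent.Lib.Fischer.M22.Mult.MonoChk25
import Cfsg.Agent.Lib.Fischer.M22.Mult.MonoChk26
import Cfsg.Agent.Lib.Fischer.M22.Mult.MonoChk27
import Cfsg.Agent.Lib.Fischer.M22.Mult.MonoChk28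
import Cfsg.Agent.Lib.Fischer.M22.Mult.MonoChk29
import Cfsg.Agent.Lib.Fischer.M22.Mult.MonoChk30
import Cfsg.Agent.Lib.Fischer.M22.Mult.Lift
import Cfsg.Agent.Lib.Fischer.M23.Mult.Grade

set_option autoImplicit false
set_option maxRecDepth 100000

namespace Cfsg.Agent.Lib.Fischer.M22.Mult.Mono

open Cfsg.Agent.Lib.Compute.ToddCoxeterCore Cfsg.Agent.Lib.Compute.ToddCoxeterPresented
open Cfsg.Agent.Lib.Fischer.M23.Mult.Words (cW)
open Cfsg.Agent.Lib.Fischer.M23.Mult.Grade (cW_prod)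
open Lift

theorem allBase : ∀ i, i < 61776 → chkBase i = true := fun i hi =>
  (allFrom_chain (allFrom_chain (allFrom_chain (allFrom_chain (allFrom_chain (allFrom_chain (allFrom_chain (allFrom_chain (allFrom_chain (allFrom_chain (allFrom_chain (allFrom_chain (allFrom_chain (allFrom_chain (allFrom_chain (allFrom_chain (allFrom_chain (allFrom_chain (allFrom_chain (allFrom_chain (allFrom_chain (allFrom_chain (allFrom_chain (allFrom_chain (allFrom_chain (allFrom_chain (allFrom_chain (allFrom_chain (allFrom_chain (allFrom_chain (allFrom_chain (allFrom_chain (allFrom_chain (allFrom_chain (allFrom_chain (allFrom_chain (allFrom_chain (allFrom_chain (allFrom_chain (allFrom_chain (allFrom_chain (allFrom_chain (allFrom_chain (allFrom_chain (allFrom_chain (allFrom_chain (allFrom_chain (allFrom_chain (allFrom_chain (allFrom_chain (allFrom_chain (allFrom_chain (allFrom_chain (allFrom_chain (allFrom_chain (allFrom_chain (allFrom_chain (allFrom_chain (allFrom_chain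 (allFrom_chain (allFrom_chain (allFrom_chain (allFrom_chain (allFrom_chain (allFrom_chain (allFrom_chain (allFrom_chain (allFrom_chain (allFrom_chain (allFrom_chain (allFrom_chain (allFrom_chain (allFrom_chain (allFrom_chain (allFrom_chain (allFrom_chain (allFrom_chain (allFrom_chain (allFrom_chain (allFrom_chain (allFrom_chain (allFrom_chain (allFrom_chain (allFrom_chain (allFrom_chain (allFrom_chain (allFrom_chain (allFrom_chain (allFrom_chain (allFrom_chain (allFrom_chain (allFrom_chain (allFrom_chain (allFrom_chain (allFrom_chain (allFrom_chain (allFrom_chain (allFrom_chain (allFrom_chain (allFrom_chain (allFrom_chain (allFrom_chain (allFrom_chain (allFrom_chain (allFrom_chain (allFrom_chain (allFrom_chain (allFrom_chain (allFrom_chain (allFrom_chain (allFrom_chain (allFrom_chain (allFrom_chain (allFrom_chain (allFrom_chain (allFrom_chain (allFrom_chain (allFrom_chain (allFrom_chain (allFrom_chain (allFrom_chain (allFrom_chain (allFrom_chain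 (allFrom_chain (allFrom_chain (allFrom_chain (allFrom_chain (allFrom_chain (allFrom_chain (allFrom_chain (allFrom_chain (allFrom_chain (allFrom_chain (allFrom_chain (allFrom_chain (allFrom_chain (allFrom_chain (allFrom_chain (allFrom_chain (allFrom_chain (allFrom_chain (allFrom_chain (allFrom_chain (allFrom_chain (allFrom_chain (allFrom_chain (allFrom_chain (allFrom_chain (allFrom_chain (allFrom_chain (allFrom_chain (allFrom_chain (allFrom_chain (allFrom_chain (allFrom_chain (allFrom_chain (allFrom_chain (allFrom_chain (allFrom_chain (allFrom_chain (allFrom_chain (allFrom_chain (allFrom_chain (allFrom_chain (allFrom_chain (allFrom_chain (allFrom_chain (allFrom_chain (allFrom_chain (allFrom_chain (allFrom_chain (allFrom_chain (allFrom_chain (allFrom_chain (allFrom_chain (allFrom_chain (allFrom_chain (allFrom_chain (allFrom_chain (allFrom_chain (allFrom_chain (allFrom_chain (allFrom_chain (allFrom_chain (allFrom_chain (allFrom_chain (allFrom_chain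 (allFrom_chain (allFrom_chain (allFrom_chain (allFrom_chain (allFrom_chain (allFrom_chain (allFrom_chain (allFrom_chain (allFrom_chain (allFrom_chain (allFrom_chain (allFrom_chain (allFrom_chain (allFrom_chain (allFrom_chain (allFrom_chain (allFrom_chain (allFrom_chain (allFrom_chain (allFrom_chain (allFrom_chain (allFrom_chain (allFrom_chain (allFrom_chain (allFrom_chain (allFrom_chain (allFrom_chain (allFrom_chain (allFrom_chain (allFrom_chain (allFrom_chain (allFrom_chain (allFrom_chain (allFrom_chain (allFrom_chain (allFrom_chain (allFrom_chain (allFrom_chain (allFrom_chain (allFrom_chain (allFrom_chain (allFrom_chain (allFrom_chain (allFrom_chain (allFrom_chain (allFrom_chain (allFrom_chain (allFrom_chain (allFrom_chain (allFrom_chain (allFrom_chain (allFrom_chain (allFrom_chain (allFrom_chain (allFrom_chain (allFrom_chain (allFrom_chain (allFrom_chain (allFrom_chain (allFrom_chain (allFrom_chain (allFrom_nil chkBase (nat_lit 0)) chk0_0 (c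 := 250) rfl) chk0_1 (c := 500) rfl) chk0_2 (c := 750) rfl) chk0_3 (c := 1000) rfl) chk0_4 (c := 1250) rfl) chk0_5 (c := 1500) rfl) chk0_6 (c := 1750) rfl) chk0_7 (c := 2000) rfl) chk1_0 (c := 2250) rfl) chk1_1 (c := 2500) rfl) chk1_2 (c := 2750) rfl) chk1_3 (c := 3000) rfl) chk1_4 (c := 3250) rfl) chk1_5 (c := 3500) rfl) chk1_6 (c := 3750) rfl) chk1_7 (c := 4000) rfl) chk2_0 (c := 4250) rfl) chk2_1 (c := 4500) rfl) chk2_2 (c := 4750) rfl) chk2_3 (c := 5000) rfl) chk2_4 (c := 5250) rfl) chk2_5 (c := 5500) rfl) chk2_6 (c := 5750) rfl) chk2_7 (c := 6000) rfl) chk3_0 (c := 6250) rfl) chk3_1 (c := 6500) rfl) chk3_2 (c := 6750) rfl) chk3_3 (c := 7000) rfl) chk3_4 (c := 7250) rfl) chk3_5 (c := 7500) rfl) chk3_6 (c := 7750) rfl) chk3_7 (c := 8000) rfl) chk4_0 (c := 8250) rfl) chk4_1 (c := 8500) rfl) chk4_2 (c := 8750) rfl) chk4_3 (c := 9000) rfl) chk4_4 (c := 9250) rfl) chk4_5 (c := 9500) rfl) chk4_6 (c := 9750) rfl) chk4_7 (c := 10000) rfl) chk5_0 (c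 := 10250) rfl) chk5_1 (c := 10500) rfl) chk5_2 (c := 10750) rfl) chk5_3 (c := 11000) rfl) chk5_4 (c := 11250) rfl) chk5_5 (c := 11500) rfl) chk5_6 (c := 11750) rfl) chk5_7 (c := 12000) rfl) chk6_0 (c := 12250) rfl) chk6_1 (c := 12500) rfl) chk6_2 (c := 12750) rfl) chk6_3 (c := 13000) rfl) chk6_4 (c := 13250) rfl) chk6_5 (c := 13500) rfl) chk6_6 (c := 13750) rfl) chk6_7 (c := 14000) rfl) chk7_0 (c := 14250) rfl) chk7_1 (c := 14500) rfl) chk7_2 (c := 14750) rfl) chk7_3 (c := 15000) rfl) chk7_4 (c := 15250) rfl) chk7_5 (c := 15500) rfl) chk7_6 (c := 15750) rfl) chk7_7 (c := 16000) rfl) chk8_0 (c := 16250) rfl) chk8_1 (c := 16500) rfl) chk8_2 (c := 16750) rfl) chk8_3 (c := 17000) rfl) chk8_4 (c := 17250) rfl) chk8_5 (c := 17500) rfl) chk8_6 (c := 17750) rfl) chk8_7 (c := 18000) rfl) chk9_0 (c := 18250) rfl) chk9_1 (c := 18500) rfl) chk9_2 (c := 18750) rfl) chk9_3 (c := 19000) rfl) chk9_4 (c := 19250) rfl) chk9_5 (c := 19500) rfl) chk9_6 (c := 19750)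 rfl) chk9_7 (c := 20000) rfl) chk10_0 (c := 20250) rfl) chk10_1 (c := 20500) rfl) chk10_2 (c := 20750) rfl) chk10_3 (c := 21000) rfl) chk10_4 (c := 21250) rfl) chk10_5 (c := 21500) rfl) chk10_6 (c := 21750) rfl) chk10_7 (c := 22000) rfl) chk11_0 (c := 22250) rfl) chk11_1 (c := 22500) rfl) chk11_2 (c := 22750) rfl) chk11_3 (c := 23000) rfl) chk11_4 (c := 23250) rfl) chk11_5 (c := 23500) rfl) chk11_6 (c := 23750) rfl) chk11_7 (c := 24000) rfl) chk12_0 (c := 24250) rfl) chk12_1 (c := 24500) rfl) chk12_2 (c := 24750) rfl) chk12_3 (c := 25000) rfl) chk12_4 (c := 25250) rfl) chk12_5 (c := 25500) rfl) chk12_6 (c := 25750) rfl) chk12_7 (c := 26000) rfl) chk13_0 (c := 26250) rfl) chk13_1 (c := 26500) rfl) chk13_2 (c := 26750) rfl) chk13_3 (c := 27000) rfl) chk13_4 (c := 27250) rfl) chk13_5 (c := 27500) rfl) chk13_6 (c := 27750) rfl) chk13_7 (c := 28000) rfl) chk14_0 (c := 28250) rfl) chk14_1 (c := 28500) rfl) chk14_2 (c := 28750) rfl) chk14_3 (c := 29000)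 rfl) chk14_4 (c := 29250) rfl) chk14_5 (c := 29500) rfl) chk14_6 (c := 29750) rfl) chk14_7 (c := 30000) rfl) chk15_0 (c := 30250) rfl) chk15_1 (c := 30500) rfl) chk15_2 (c := 30750) rfl) chk15_3 (c := 31000) rfl) chk15_4 (c := 31250) rfl) chk15_5 (c := 31500) rfl) chk15_6 (c := 31750) rfl) chk15_7 (c := 32000) rfl) chk16_0 (c := 32250) rfl) chk16_1 (c := 32500) rfl) chk16_2 (c := 32750) rfl) chk16_3 (c := 33000) rfl) chk16_4 (c := 33250) rfl) chk16_5 (c := 33500) rfl) chk16_6 (c := 33750) rfl) chk16_7 (c := 34000) rfl) chk17_0 (c := 34250) rfl) chk17_1 (c := 34500) rfl) chk17_2 (c := 34750) rfl) chk17_3 (c := 35000) rfl) chk17_4 (c := 35250) rfl) chk17_5 (c := 35500) rfl) chk17_6 (c := 35750) rfl) chk17_7 (c := 36000) rfl) chk18_0 (c := 36250) rfl) chk18_1 (c := 36500) rfl) chk18_2 (c := 36750) rfl) chk18_3 (c := 37000) rfl) chk18_4 (c := 37250) rfl) chk18_5 (c := 37500) rfl) chk18_6 (c := 37750) rfl) chk18_7 (c := 38000) rfl) chk19_0 (c := 38250)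 rfl) chk19_1 (c := 38500) rfl) chk19_2 (c := 38750) rfl) chk19_3 (c := 39000) rfl) chk19_4 (c := 39250) rfl) chk19_5 (c := 39500) rfl) chk19_6 (c := 39750) rfl) chk19_7 (c := 40000) rfl) chk20_0 (c := 40250) rfl) chk20_1 (c := 40500) rfl) chk20_2 (c := 40750) rfl) chk20_3 (c := 41000) rfl) chk20_4 (c := 41250) rfl) chk20_5 (c := 41500) rfl) chk20_6 (c := 41750) rfl) chk20_7 (c := 42000) rfl) chk21_0 (c := 42250) rfl) chk21_1 (c := 42500) rfl) chk21_2 (c := 42750) rfl) chk21_3 (c := 43000) rfl) chk21_4 (c := 43250) rfl) chk21_5 (c := 43500) rfl) chk21_6 (c := 43750) rfl) chk21_7 (c := 44000) rfl) chk22_0 (c := 44250) rfl) chk22_1 (c := 44500) rfl) chk22_2 (c := 44750) rfl) chk22_3 (c := 45000) rfl) chk22_4 (c := 45250) rfl) chk22_5 (c := 45500) rfl) chk22_6 (c := 45750) rfl) chk22_7 (c := 46000) rfl) chk23_0 (c := 46250) rfl) chk23_1 (c := 46500) rfl) chk23_2 (c := 46750) rfl) chk23_3 (c := 47000) rfl) chk23_4 (c := 47250) rfl) chk23_5 (c := 47500)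 rfl) chk23_6 (c := 47750) rfl) chk23_7 (c := 48000) rfl) chk24_0 (c := 48250) rfl) chk24_1 (c := 48500) rfl) chk24_2 (c := 48750) rfl) chk24_3 (c := 49000) rfl) chk24_4 (c := 49250) rfl) chk24_5 (c := 49500) rfl) chk24_6 (c := 49750) rfl) chk24_7 (c := 50000) rfl) chk25_0 (c := 50250) rfl) chk25_1 (c := 50500) rfl) chk25_2 (c := 50750) rfl) chk25_3 (c := 51000) rfl) chk25_4 (c := 51250) rfl) chk25_5 (c := 51500) rfl) chk25_6 (c := 51750) rfl) chk25_7 (c := 52000) rfl) chk26_0 (c := 52250) rfl) chk26_1 (c := 52500) rfl) chk26_2 (c := 52750) rfl) chk26_3 (c := 53000) rfl) chk26_4 (c := 53250) rfl) chk26_5 (c := 53500) rfl) chk26_6 (c := 53750) rfl) chk26_7 (c := 54000) rfl) chk27_0 (c := 54250) rfl) chk27_1 (c := 54500) rfl) chk27_2 (c := 54750) rfl) chk27_3 (c := 55000) rfl) chk27_4 (c := 55250) rfl) chk27_5 (c := 55500) rfl) chk27_6 (c := 55750) rfl) chk27_7 (c := 56000) rfl) chk28_0 (c := 56250) rfl) chk28_1 (c := 56500) rfl) chk28_2 (c := 56750)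 rfl) chk28_3 (c := 57000) rfl) chk28_4 (c := 57250) rfl) chk28_5 (c := 57500) rfl) chk28_6 (c := 57750) rfl) chk28_7 (c := 58000) rfl) chk29_0 (c := 58250) rfl) chk29_1 (c := 58500) rfl) chk29_2 (c := 58750) rfl) chk29_3 (c := 59000) rfl) chk29_4 (c := 59250) rfl) chk29_5 (c := 59500) rfl) chk29_6 (c := 59750) rfl) chk29_7 (c := 60000) rfl) chk30_0 (c := 60250) rfl) chk30_1 (c := 60500) rfl) chk30_2 (c := 60750) rfl) chk30_3 (c := 61000) rfl) chk30_4 (c := 61250) rfl) chk30_5 (c := 61500) rfl) chk30_6 (c := 61750) rfl) chk30_7 (c := 61776) rfl) i (Nat.zero_le i) hi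

theorem bb {b t : Bool} (h : (Bool.rec (motive := fun _ => Bool) false t b) = true) : b = true ∧ t = true := by
  cases b
  · cases h
  · exact ⟨rfl, h⟩

theorem chkEnts_spec {l : List ℕ} {i : ℕ} (h : chkEnts l i = true) : ∀ x ∈ l, chkEnt i x = true := by
  induction l with
  | nil => intro x hx; cases hx
  | cons y l ih =>
    have h' : (Bool.rec (motive := fun _ => Bool) false (chkEnts l i) (chkEnt i y)) = true := h
    obtain ⟨h1, h2⟩ := bb h'
    intro x hx
    rcases List.mem_cons.1 hx with rfl | hx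
    · exact h1
    · exact ih h2 x hx

theorem chkRels_spec {rels : List (List ℕ)} {p : ℕ} (h : chkRels rels p = true) :
    ∀ a ∈ rels, a.foldl (fun j x => T3 x j) p = p := by
  induction rels with
  | nil => intro x hx; cases hx
  | cons y l ih =>
    have h' : (Bool.rec (motive := fun _ => Bool) false (chkRels l p) (walkM y p (Nat.beq p))) = true := h
    obtain ⟨h1, h2⟩ := bb h'
    intro x hx
    rcases List.mem_cons.1 hx with rfl | hx
    · rw [walkM_eq] at h1
      exact (Nat.eq_of_beq_eq_true h1).symm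
    · exact ih h2 x hx

theorem chkEnt_spec {i x : ℕ} (h : chkEnt i x = true) :
    ent i x < 185328 ∧ ent (ent i x / 3) x / 3 = i ∧ (ent (ent i x / 3) x % 3 + ent i x % 3) % 3 = 0 := by
  unfold chkEnt at h
  rw [frc_eq] at h
  obtain ⟨h1, h2⟩ := bb h
  rw [frc_eq] at h2
  obtain ⟨h3, h4⟩ := bb h2
  exact ⟨Nat.le_of_ble_eq_true h1, Nat.eq_of_beq_eq_true h3, Nat.eq_of_beq_eq_true h4⟩

theorem base_spec {i : ℕ} (hi : i < 61776) :
    (∀ x, x < 9 → (ent i x < 185328 ∧ ent (ent i x / 3) x / 3 = i ∧ (ent (ent i x / 3) x % 3 + ent i x % 3) % 3 = 0)) ∧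
    (∀ a ∈ relL, a.foldl (fun j x => T3 x j) (3 * i) = 3 * i) ∧
    lS.foldl (fun j x => T3 x j) (3 * i) = 3 * i + 1 := by
  have h := allBase i hi
  unfold chkBase at h
  rw [frc_eq] at h
  obtain ⟨h1, h2⟩ := bb h
  obtain ⟨h3, h4⟩ := bb h2
  refine ⟨?_, chkRels_spec h3, ?_⟩
  · intro x hx
    apply chkEnt_spec
    apply chkEnts_spec h1
    simp only [List.mem_cons, List.not_mem_nil, or_false]
    omega
  · rw [walkM_eq] at h4
    exact (Nat.eq_of_beq_eq_true h4).symm

theorem T3_eq (x p : ℕ) : T3 x p = 3 * (ent (p / 3) x / 3) + (ent (p / 3) x % 3 + p % 3) % 3 := by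
  unfold T3
  rw [frc_eq]
  rfl

theorem Cf_eq (p : ℕ) : Cf p = 3 * (p / 3) + (p % 3 + 1) % 3 := rfl

theorem T3_lt {x p : ℕ} (hx : x < 9) (hp : p < 185328) : T3 x p < 185328 := by
  have h := ((base_spec (i := p / 3) (by omega)).1 x hx).1
  rw [T3_eq]
  omega

theorem T3_inv {x p : ℕ} (hx : x < 9) (hp : p < 185328) : T3 x (T3 x p) = p := by
  obtain ⟨h1, h2, h3⟩ := (base_spec (i := p / 3) (by omega)).1 x hx
  rw [T3_eq x p]
  generalize he : ent (p / 3) x = e at h1 h2 h3 ⊢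
  rw [T3_eq]
  have hq : (3 * (e / 3) + (e % 3 + p % 3) % 3) / 3 = e / 3 := by omega
  rw [hq]
  generalize he' : ent (e / 3) x = e' at h2 h3 ⊢
  omega

theorem T3_Cf (x p : ℕ) : T3 x (Cf p) = Cf (T3 x p) := by
  rw [T3_eq, T3_eq x p, Cf_eq, Cf_eq]
  have hq : (3 * (p / 3) + (p % 3 + 1) % 3) / 3 = p / 3 := by omega
  rw [hq]
  generalize ent (p / 3) x = e
  omega

/-- The generators. -/
noncomputable def X (x : Fin 9) : Equiv.Perm (Fin 185328) where
  toFun p := ⟨T3 x.1 p.1, T3_lt x.2 p.2⟩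
  invFun p := ⟨T3 x.1 p.1, T3_lt x.2 p.2⟩
  left_inv p := Fin.ext (T3_inv x.2 p.2)
  right_inv p := Fin.ext (T3_inv x.2 p.2)

theorem X_val (x : Fin 9) (p : Fin 185328) : ((X x p : Fin 185328) : ℕ) = T3 x.1 p.1 := rfl

/-- The central element. -/
def Cp : Equiv.Perm (Fin 185328) where
  toFun p := ⟨Cf p.1, by rw [Cf_eq]; omega⟩
  invFun p := ⟨Cf (Cf p.1), by rw [Cf_eq, Cf_eq]; omega⟩
  left_inv p := Fin.ext (by show Cf (Cf (Cf p.1)) = p.1; rw [Cf_eq, Cf_eq, Cf_eq]; omega)
  right_inv p := Fin.ext (by show Cf (Cf (Cf p.1)) = p.1; rw [Cf_eq, Cf_eq, Cf_eq]; omega)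

theorem Cp_val (p : Fin 185328) : ((Cp p : Fin 185328) : ℕ) = Cf p.1 := rfl

theorem X_comm (x : Fin 9) : Commute (X x) Cp := by
  ext p
  show T3 x.1 (Cf p.1) = Cf (T3 x.1 p.1)
  exact T3_Cf _ _

theorem X_sq (x : Fin 9) : X x * X x = 1 := by
  ext p
  show T3 x.1 (T3 x.1 p.1) = p.1
  exact T3_inv x.2 p.2

theorem word_comm (w : List (Fin 9)) : Commute (w.map X).prod Cp := by
  induction w with
  | nil => exact Commute.one_left _
  | cons x w ih =>
    simp only [List.map_cons, List.prod_cons]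
    exact (X_comm x).mul_left ih

theorem word_val (w : List (Fin 9)) (p : Fin 185328) :
    (((w.map X).prod p : Fin 185328) : ℕ) = ((w.map (·.val)).reverse).foldl (fun j x => T3 x j) p.val := by
  induction w with
  | nil => rfl
  | cons x w ih =>
    simp only [List.map_cons, List.prod_cons, List.reverse_cons, List.foldl_append, List.foldl_cons, List.foldl_nil]
    rw [← ih]
    rfl

theorem eq_of_base {W V : Equiv.Perm (Fin 185328)} (hW : Commute W Cp) (hV : Commute V Cp)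
    (h : ∀ i (hi : i < 61776), W ⟨3 * i, by omega⟩ = V ⟨3 * i, by omega⟩) : W = V := by
  ext p
  have hi : p.1 / 3 < 61776 := by omega
  have h0 := h _ hi
  have hW' : ∀ q, W (Cp q) = Cp (W q) := fun q => by
    have := DFunLike.congr_fun hW.eq q
    simpa using this
  have hV' : ∀ q, V (Cp q) = Cp (V q) := fun q => by
    have := DFunLike.congr_fun hV.eq q
    simpa using this
  set q : Fin 185328 := ⟨3 * (p.1 / 3), by omega⟩ with hq
  have hcases : p = q ∨ p = Cp q ∨ p = Cp (Cp q) := by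
    have h3 : p.1 % 3 = 0 ∨ p.1 % 3 = 1 ∨ p.1 % 3 = 2 := by omega
    rcases h3 with h3 | h3 | h3
    · left
      apply Fin.ext
      show p.1 = 3 * (p.1 / 3)
      omega
    · right; left
      apply Fin.ext
      show p.1 = Cf (3 * (p.1 / 3))
      rw [Cf_eq]
      omega
    · right; right
      apply Fin.ext
      show p.1 = Cf (Cf (3 * (p.1 / 3)))
      rw [Cf_eq, Cf_eq]
      omega
  rcases hcases with e | e | e
  · rw [e]; exact congrArg _ h0
  · rw [e, hW', hV', h0]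
  · rw [e, hW', hW', hV', hV', h0]

theorem rel_one (w : List (Fin 9)) (hw : ((w.map (·.val)).reverse) ∈ relL) : (w.map X).prod = 1 := by
  apply eq_of_base (word_comm w) (Commute.one_left _)
  intro i hi
  apply Fin.ext
  rw [word_val]
  exact (base_spec hi).2.1 _ hw

theorem spider_eq (w : List (Fin 9)) (hw : ((w.map (·.val)).reverse) = lS) : (w.map X).prod = Cp := by
  apply eq_of_base (word_comm w) (Commute.refl _)
  intro i hi
  apply Fin.ext
  rw [word_val, hw, Cp_val, (base_spec hi).2.2, Cf_eq]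
  show 3 * i + 1 = 3 * (3 * i / 3) + (3 * i % 3 + 1) % 3
  omega

theorem Cp_cube : Cp ^ 3 = 1 := by
  ext p
  show Cf (Cf (Cf p.1)) = p.1
  rw [Cf_eq, Cf_eq, Cf_eq]
  omega

theorem Cp_sq_ne : Cp ^ 2 ≠ 1 := by
  intro h
  have h1 := DFunLike.congr_fun h (0 : Fin 185328)
  have h2 := congrArg Fin.val h1
  have h3 : Cf (Cf 0) = 0 := h2
  rw [Cf_eq, Cf_eq] at h3
  omega

theorem mem_rel : ∀ x y : Fin 9, x < y →
    (((cW (if adj9 x y = true then 3 else 2) x y).map (·.val)).reverse) ∈ relL := by decide +kernel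

theorem adj_symm : ∀ x y : Fin 9, adj9 x y = adj9 y x := by decide

theorem swap_pow {Q : Type*} [Group Q] {a b : Q} {m : ℕ} (h : (a * b) ^ m = 1) : (b * a) ^ m = 1 := by
  have e : b * a = a⁻¹ * (a * b) * a := by group
  rw [e]
  have e2 : a⁻¹ * (a * b) * a = a⁻¹ * (a * b) * a⁻¹⁻¹ := by simp
  rw [e2, conj_pow, h]
  simp

theorem label_X (x y : Fin 9) (hxy : x < y) : (X x * X y) ^ (if adj9 x y = true then 3 else 2) = 1 := by
  have h := rel_one _ (mem_rel x y hxy)
  rwa [cW_prod] at h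

end Cfsg.Agent.Lib.Fischer.M22.Mult.Mono
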