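/-
A stem extension of `Fi₂₂` with kernel cyclic of order `6`: the subgroup generated by the triples
(generator of `2·Fi₂₂` in `Fi₂₃`, generator of the monomial representation, generator of `Fi₂₂`).
-/
import Cfsg.Prelude.Def_KGroupFacts
import Cfsg.Agent.S1688
import Cfsg.Agent.Lib.Fischer.M22.Mult.Key
import Cfsg.Agent.Lib.Fischer.M22.Mult.Mono

set_option autoImplicit false
set_option maxRecDepth 100000

namespace Cfsg.Agent.Lib.Fischer.M22.Mult.Cover

open Cfsg.Spor Lift Key Mono
open Cfsg.Agent.Lib.Fischer.M23.Mult.Words (wP adj10)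
open Cfsg.Agent.Lib.Fischer.M23.Mult.Lift (z1W)
open Cfsg.Agent.Lib.Fischer.M23.Mult.Key (flat_prod gG nodes_gG z1_gG z2_gG z2W)
open Cfsg.Agent.S1688 (zG zG_comm zG_sq zG_ne of_gm_mem gm)

/-- The nodes of `Y₃₃₂` in `Y₃₄₂`. -/
def e9 : Fin 9 → Fin 10 := ![0, 1, 2, 3, 4, 5, 6, 8, 9]

/-- The generators of `2·Fi₂₂` in `Fi₂₃`. -/
noncomputable def gE (x : Fin 9) : Fi23 := gG (e9 x)

theorem e9_adj : ∀ x y, adj10 (e9 x) (e9 y) = adj9 x y := by decide

theorem e9_inj : Function.Injective e9 := by decide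

theorem nodes_gE : NodesN gE where
  sq _ := nodes_gG.sq _
  br x y h := nodes_gG.br _ _ (by rw [e9_adj]; exact h)
  cm x y hne h := nodes_gG.cm _ _ (fun e => hne (e9_inj e)) (by rw [e9_adj]; exact h)

theorem nodes_X : NodesN X := by
  apply nodes_of_label
  intro x y
  by_cases hxy : x = y
  · subst hxy
    simpa using X_sq x
  · rw [if_neg hxy]
    rcases lt_or_gt_of_ne hxy with h | h
    · exact label_X x y h
    · have h1 := label_X y x h
      rw [adj_symm] at h1
      exact swap_pow h1

/-- The ambient group. -/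
abbrev PP : Type := Fi23 × Equiv.Perm (Fin 185328) × Fi22

/-- The generators. -/
noncomputable def fE (x : Fin 9) : PP := (gE x, X x, gF x)

theorem nodes_fE : NodesN fE where
  sq x := Prod.ext (nodes_gE.sq x) (Prod.ext (X_sq x) (nodes_gF.sq x))
  br x y h := Prod.ext (nodes_gE.br x y h) (Prod.ext (nodes_X.br x y h) (nodes_gF.br x y h))
  cm x y hne h := Prod.ext (nodes_gE.cm x y hne h) (Prod.ext (nodes_X.cm x y hne h) (nodes_gF.cm x y hne h))

theorem prod_fE (l : List (Fin 9)) :
    (l.map fE).prod = ((l.map gE).prod, (l.map X).prod, (l.map gF).prod) := by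
  induction l with
  | nil => rfl
  | cons x l ih =>
    simp only [List.map_cons, List.prod_cons, ih]
    rfl

theorem gE_word (l : List (Fin 9)) : (l.map gE).prod = ((l.map e9).map gG).prod := by
  rw [List.map_map]
  rfl

theorem zS_gE : (zS.map gE).prod = 1 := by
  rw [gE_word, show zS.map e9 = z2W by decide, z2_gG]

theorem zA_gE : (zA.map gE).prod = 1 := by
  rw [gE_word, show zA.map e9 = z1W by decide, z1_gG]

theorem zB_gE : (zB.map gE).prod = zG := by
  have e : zG = PresentedGroup.mk Cfsg.Agent.S1688.R23 Cfsg.Agent.S1688.zF := rfl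
  rw [e, Cfsg.Agent.S1688.zF, map_pow, zB, flat_prod]
  congr 1

theorem zS_X : (zS.map X).prod = Cp := spider_eq zS (by decide +kernel)

theorem zA_X : (zA.map X).prod = 1 := rel_one zA (by decide +kernel)

theorem zB_X : (zB.map X).prod = 1 := rel_one zB (by decide +kernel)

/-- The map from the free group. -/
noncomputable def Phi : FreeGroup Fi22.Gen →* PP := FreeGroup.lift (fE ∘ idx)

theorem Phi_of (y : Fi22.Gen) : Phi (FreeGroup.of y) = fE (idx y) := by
  simp [Phi]

/-- The central element of order `6`. -/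
noncomputable def w0 : PP := (zG, Cp, 1)

theorem zG_sq' : (zG : Fi23) * zG = 1 := by
  have h := zG_sq
  rwa [pow_two] at h

theorem w0_three : w0 ^ 3 = ((zG : Fi23), (1 : Equiv.Perm (Fin 185328)), (1 : Fi22)) := by
  apply Prod.ext
  · show (zG : Fi23) ^ 3 = zG
    rw [pow_succ, pow_two, zG_sq', one_mul]
  · apply Prod.ext
    · exact Cp_cube
    · show (1 : Fi22) ^ 3 = 1
      simp

theorem w0_four : w0 ^ 4 = ((1 : Fi23), Cp, (1 : Fi22)) := by
  apply Prod.ext
  · show (zG : Fi23) ^ 4 = 1
    rw [show (4 : ℕ) = 2 * 2 by norm_num, pow_mul, zG_sq, one_pow]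
  · apply Prod.ext
    · show Cp ^ 4 = Cp
      rw [pow_succ, Cp_cube, one_mul]
    · show (1 : Fi22) ^ 4 = 1
      simp

theorem Phi_rel : ∀ r ∈ coxRelators Fi22.edges ∪ {r | r ∈ Fi22.extra}, Phi r ∈ Subgroup.zpowers w0 := by
  rintro r (⟨x, -, y, -, rfl⟩ | hr)
  · have : Phi ((FreeGroup.of x * FreeGroup.of y) ^ coxLabel Fi22.edges x y) = 1 := by
      rw [map_pow, map_mul, Phi_of, Phi_of, label_eq]
      exact label_of_nodes nodes_fE (idx x) (idx y)
    rw [this]
    exact one_mem _
  · simp only [Fi22.extra, Set.mem_setOf_eq, List.mem_cons, List.not_mem_nil, or_false] at hr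
    rcases hr with rfl | rfl | rfl
    · have : Phi ((Fi22.d * Fi22.c * Fi22.b * Fi22.d * Fi22.e * Fi22.f * Fi22.d * Fi22.h * Fi22.i) ^ 10) =
          (zS.map fE).prod := by
        rw [zS, flat_prod, map_pow]
        congr 1
      rw [this, prod_fE, zS_gE, zS_X, zS_gF, ← w0_four]
      exact ⟨4, rfl⟩
    · have : Phi ((Fi22.a * Fi22.b * Fi22.c * Fi22.d * Fi22.e * Fi22.f * Fi22.h) ^ 9) = (zA.map fE).prod := by
        rw [zA, flat_prod, map_pow]
        congr 1
      rw [this, prod_fE, zA_gE, zA_X, zA_gF]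
      exact one_mem _
    · have : Phi ((Fi22.b * Fi22.c * Fi22.d * Fi22.e * Fi22.f * Fi22.g * Fi22.h) ^ 9) = (zB.map fE).prod := by
        rw [zB, flat_prod, map_pow]
        congr 1
      rw [this, prod_fE, zB_gE, zB_X, zB_gF, ← w0_three]
      exact ⟨3, rfl⟩

theorem gm_nd : ∀ x, gm (nd x) = Cfsg.Agent.Lib.Fischer.M23.Mult.Key.nd (e9 x) := by decide

theorem w0_comm_fE (x : Fin 9) : Commute w0 (fE x) := by
  apply Prod.ext
  · have h := zG_comm (PresentedGroup.of (gm (nd x))) (of_gm_mem (nd x))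
    rw [gm_nd] at h
    exact h
  · apply Prod.ext
    · exact (X_comm x).symm.eq
    · show (1 : Fi22) * gF x = gF x * 1
      simp

theorem w0_comm (u : FreeGroup Fi22.Gen) : Commute w0 (Phi u) := by
  induction u using FreeGroup.induction_on with
  | C1 => rw [map_one]; exact Commute.one_right _
  | of x =>
    rw [Phi_of]
    exact w0_comm_fE _
  | inv_of x h =>
    rw [map_inv]
    exact h.inv_right
  | mul x y hx hy =>
    rw [map_mul]
    exact hx.mul_right hy

/-- The group. -/
noncomputable abbrev EE : Subgroup PP := Phi.range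

/-- The map to `Fi₂₂`. -/
noncomputable def sig : EE →* Fi22 :=
  ((MonoidHom.snd _ _).comp (MonoidHom.snd _ _)).comp EE.subtype

theorem sig_Phi (u : FreeGroup Fi22.Gen) :
    ((MonoidHom.snd _ _).comp (MonoidHom.snd _ _)).comp Phi u = PresentedGroup.mk _ u := by
  have : ((MonoidHom.snd (Equiv.Perm (Fin 185328)) Fi22).comp (MonoidHom.snd Fi23 _)).comp Phi =
      PresentedGroup.mk (coxRelators Fi22.edges ∪ {r | r ∈ Fi22.extra}) := by
    ext y
    show (fE (idx y)).2.2 = _
    show gF (idx y) = PresentedGroup.of y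
    rw [gF, nd_idx]
  exact DFunLike.congr_fun this u

theorem sig_surj : Function.Surjective sig := by
  intro y
  obtain ⟨u, rfl⟩ := PresentedGroup.mk_surjective _ y
  exact ⟨⟨Phi u, ⟨u, rfl⟩⟩, sig_Phi u⟩

theorem w0_mem : w0 ∈ EE := by
  have h1 : ((zG : Fi23), (1 : Equiv.Perm (Fin 185328)), (1 : Fi22)) ∈ EE := by
    refine ⟨(Fi22.b * Fi22.c * Fi22.d * Fi22.e * Fi22.f * Fi22.g * Fi22.h) ^ 9, ?_⟩
    have : Phi ((Fi22.b * Fi22.c * Fi22.d * Fi22.e * Fi22.f * Fi22.g * Fi22.h) ^ 9) = (zB.map fE).prod := by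
      rw [zB, flat_prod, map_pow]
      congr 1
    rw [this, prod_fE, zB_gE, zB_X, zB_gF]
  have h2 : ((1 : Fi23), Cp, (1 : Fi22)) ∈ EE := by
    refine ⟨(Fi22.d * Fi22.c * Fi22.b * Fi22.d * Fi22.e * Fi22.f * Fi22.d * Fi22.h * Fi22.i) ^ 10, ?_⟩
    have : Phi ((Fi22.d * Fi22.c * Fi22.b * Fi22.d * Fi22.e * Fi22.f * Fi22.d * Fi22.h * Fi22.i) ^ 10) =
        (zS.map fE).prod := by
      rw [zS, flat_prod, map_pow]
      congr 1
    rw [this, prod_fE, zS_gE, zS_X, zS_gF]
  have h3 := mul_mem h1 h2
  have e : ((zG : Fi23), (1 : Equiv.Perm (Fin 185328)), (1 : Fi22)) * ((1 : Fi23), Cp, (1 : Fi22)) = w0 := by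
    apply Prod.ext
    · exact mul_one _
    · apply Prod.ext
      · exact one_mul _
      · exact one_mul _
  rwa [e] at h3

/-- The central element in the group. -/
noncomputable def ww : EE := ⟨w0, w0_mem⟩

theorem ww_center : ww ∈ Subgroup.center EE := by
  rw [Subgroup.mem_center_iff]
  rintro ⟨_, ⟨u, rfl⟩⟩
  exact Subtype.ext (w0_comm u).symm.eq

theorem ker_eq : sig.ker = Subgroup.zpowers ww := by
  apply le_antisymm
  · rintro ⟨_, ⟨u, rfl⟩⟩ hk
    have h1 : PresentedGroup.mk (coxRelators Fi22.edges ∪ {r | r ∈ Fi22.extra}) u = 1 := by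
      rw [← sig_Phi u]
      exact hk
    have h2 : u ∈ Subgroup.normalClosure (coxRelators Fi22.edges ∪ {r | r ∈ Fi22.extra}) :=
      (QuotientGroup.eq_one_iff u).1 h1
    have hB : ((Subgroup.zpowers w0).comap Phi).Normal := by
      refine ⟨fun b hb g => ?_⟩
      have hb' : Phi b ∈ Subgroup.zpowers w0 := hb
      show Phi (g * b * g⁻¹) ∈ Subgroup.zpowers w0
      obtain ⟨n, hn⟩ := Subgroup.mem_zpowers_iff.1 hb'
      have hc : Commute (Phi b) (Phi g) := by
        rw [← hn]
        exact ((w0_comm g).zpow_left n)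
      rw [map_mul, map_mul, map_inv, hc.symm.eq]
      simpa using hb'
    have h3 : u ∈ (Subgroup.zpowers w0).comap Phi :=
      Subgroup.normalClosure_le_normal (fun r hr => Phi_rel r hr) h2
    obtain ⟨n, hn⟩ := Subgroup.mem_zpowers_iff.1 h3
    refine Subgroup.mem_zpowers_iff.2 ⟨n, Subtype.ext ?_⟩
    exact hn
  · rw [Subgroup.zpowers_le]
    rfl

theorem ww_six : ww ^ 6 = 1 := by
  apply Subtype.ext
  show w0 ^ 6 = 1
  rw [show (6 : ℕ) = 3 * 2 by norm_num, pow_mul, w0_three]
  apply Prod.ext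
  · show (zG : Fi23) ^ 2 = 1
    exact zG_sq
  · apply Prod.ext
    · show (1 : Equiv.Perm (Fin 185328)) ^ 2 = 1
      simp
    · show (1 : Fi22) ^ 2 = 1
      simp

theorem ww_order : orderOf ww = 6 := by
  apply orderOf_eq_of_pow_and_pow_div_prime (by norm_num) ww_six
  intro p hp hd
  have hp6 : p = 2 ∨ p = 3 := by
    have h6 : (6 : ℕ) = 2 * 3 := by norm_num
    rw [h6] at hd
    rcases (Nat.Prime.dvd_mul hp).1 hd with h | h
    · exact Or.inl ((Nat.prime_dvd_prime_iff_eq hp Nat.prime_two).1 h)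
    · exact Or.inr ((Nat.prime_dvd_prime_iff_eq hp Nat.prime_three).1 h)
  rcases hp6 with rfl | rfl
  · intro h
    have h1 : w0 ^ 3 = 1 := congrArg Subtype.val h
    rw [w0_three] at h1
    exact zG_ne (congrArg Prod.fst h1)
  · intro h
    have h1 : w0 ^ 2 = 1 := congrArg Subtype.val h
    have h2 : Cp ^ 2 = 1 := congrArg (fun z : PP => z.2.1) h1
    exact Cp_sq_ne h2

/-- The kernel is cyclic of order `6`. -/
theorem ker_equiv : Nonempty (sig.ker ≃* Multiplicative (ZMod 6)) := by
  rw [ker_eq]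
  have hc : Nat.card (Subgroup.zpowers ww) = 6 := by
    rw [Nat.card_zpowers, ww_order]
  have h := zmodCyclicMulEquiv (G := Subgroup.zpowers ww) inferInstance
  rw [hc] at h
  exact ⟨h.symm⟩

/-- The generators in the group. -/
noncomputable def yy (x : Fin 9) : EE := ⟨fE x, ⟨FreeGroup.of (nd x), by rw [Phi_of, idx_nd]⟩⟩

theorem nodes_yy : NodesN yy where
  sq x := Subtype.ext (nodes_fE.sq x)
  br x y h := Subtype.ext (nodes_fE.br x y h)
  cm x y hne h := Subtype.ext (nodes_fE.cm x y hne h)

theorem zA_yy : (zA.map yy).prod = 1 := by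
  apply Subtype.ext
  have h : ((zA.map yy).prod : EE).1 = (zA.map fE).prod := by
    have e := map_list_prod EE.subtype (zA.map yy)
    rw [List.map_map] at e
    exact e
  rw [h, prod_fE, zA_gE, zA_X, zA_gF]
  rfl

theorem perfect : commutator EE = ⊤ := by
  -- the images in the abelianization
  let t : Fin 9 → Abelianization EE := fun x => Abelianization.of (yy x)
  have hsq : ∀ x, t x * t x = 1 := fun x => by
    show Abelianization.of _ * Abelianization.of _ = 1
    rw [← map_mul, nodes_yy.sq, map_one]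
  have hedge : ∀ x y, adj9 x y = true → t x = t y := by
    intro x y hxy
    have h1 : t x * t y * t x = t y * t x * t y := by
      show Abelianization.of _ * Abelianization.of _ * Abelianization.of _ =
        Abelianization.of _ * Abelianization.of _ * Abelianization.of _
      rw [← map_mul, ← map_mul, ← map_mul, ← map_mul, nodes_yy.br x y hxy]
    have h2 : t x * t y * t x = t y := by
      rw [mul_comm (t x) (t y), mul_assoc, hsq, mul_one]
    have h3 : t y * t x * t y = t x := by
      rw [mul_comm (t y) (t x), mul_assoc, hsq, mul_one]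
    rw [h2, h3] at h1
    exact h1.symm
  have h01 := hedge 0 1 (by decide)
  have h12 := hedge 1 2 (by decide)
  have h23 := hedge 2 3 (by decide)
  have h34 := hedge 3 4 (by decide)
  have h45 := hedge 4 5 (by decide)
  have h56 := hedge 5 6 (by decide)
  have h37 := hedge 3 7 (by decide)
  have h78 := hedge 7 8 (by decide)
  have hall : ∀ x, t x = t 0 := by
    intro x
    fin_cases x
    · rfl
    · exact h01.symm
    · exact (h01.trans h12).symm
    · exact (h01.trans (h12.trans h23)).symm
    · exact (h01.trans (h12.trans (h23.trans h34))).symm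
    · exact (h01.trans (h12.trans (h23.trans (h34.trans h45)))).symm
    · exact (h01.trans (h12.trans (h23.trans (h34.trans (h45.trans h56))))).symm
    · exact (h01.trans (h12.trans (h23.trans h37))).symm
    · exact (h01.trans (h12.trans (h23.trans (h37.trans h78)))).symm
  have h63 : (t 0) ^ 63 = 1 := by
    have h1 : (zA.map t).prod = 1 := by
      have e := map_list_prod (Abelianization.of : EE →* Abelianization EE) (zA.map yy)
      rw [zA_yy, map_one, List.map_map] at e
      exact e.symm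
    have h2 : zA.map t = List.replicate 63 (t 0) := by
      rw [List.eq_replicate_iff]
      refine ⟨by simp [lenA], ?_⟩
      intro b hb
      obtain ⟨x, -, rfl⟩ := List.mem_map.1 hb
      exact hall x
    rw [h2, List.prod_replicate] at h1
    exact h1
  have h1 : t 0 = 1 := by
    have e : (t 0) ^ 63 = ((t 0) ^ 2) ^ 31 * t 0 := by
      rw [← pow_mul, ← pow_succ]
    rw [e, pow_two, hsq, one_pow, one_mul] at h63
    exact h63
  have hmem : ∀ x, yy x ∈ commutator EE := by
    intro x
    have h2 : yy x ∈ (Abelianization.of : EE →* Abelianization EE).ker := by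
      rw [MonoidHom.mem_ker]
      exact (hall x).trans h1
    rwa [Abelianization.ker_of] at h2
  have hall' : ∀ u, Phi.rangeRestrict u ∈ commutator EE := by
    intro u
    induction u using FreeGroup.induction_on with
    | C1 =>
      rw [map_one]
      exact one_mem _
    | of x =>
      have : Phi.rangeRestrict (FreeGroup.of x) = yy (idx x) := Subtype.ext (Phi_of x)
      rw [this]
      exact hmem _
    | inv_of x h =>
      rw [map_inv]
      exact inv_mem h
    | mul x y hx hy =>
      rw [map_mul]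
      exact mul_mem hx hy
  rw [eq_top_iff]
  rintro ⟨_, ⟨u, rfl⟩⟩ -
  exact hall' u

theorem finEE : Finite EE := by
  haveI : Finite Fi23 := Cfsg.Agent.S1697.finG
  haveI : Finite Fi22 := Cfsg.Agent.S1696.finG
  infer_instance

/-- The multiplier of `Fi₂₂`. -/
theorem main : Cfsg.HasCyclicSchurMultiplier Fi22 6 := by
  refine ⟨⟨EE, inferInstance, finEE, sig, ⟨sig_surj, ?_, ?_⟩, ker_equiv⟩, ?_⟩
  · rw [ker_eq, Subgroup.zpowers_le]
    exact ww_center
  · rw [perfect]
    exact le_top
  · intro Γ _ _ σ hσ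
    exact exists_pi Γ σ hσ.1 hσ.2.1 hσ.2.2

end Cfsg.Agent.Lib.Fischer.M22.Mult.Cover
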